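import Cfsg.Agent.H53.C6Od

/-! Tower C11 (the normaliser of `11^{1+2}` in `SL₁₁(q)`; blueprint `C11.md`): specification. -/

set_option autoImplicit false
set_option linter.unusedSectionVars false

namespace H53.C6

open Matrix Cfsg.Geo H25 Equiv

universe u

section defs

variable {F : Type u} [Field F] {r : ℕ} [NeZero r]

/-- `F = 𝔽_p(ω)` has degree one or five over the prime field, `ω` has order `r = 11` -/
structure Fld1 (r : ℕ) (ω : Fˣ) : Prop where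
  hr : r = 11
  ord : orderOf ω = r
  gen : ∀ K : Subfield F, (ω : F) ∈ K → K = ⊤
  nsq : ¬ IsSquare (Nat.card F)
  two : (2 : F) ≠ 0
  sub : ∀ (K : Subfield F) (s : ℕ), s.Prime → Nat.card F = Nat.card K ^ s →
    (Nat.card K).Prime ∧ Nat.card K % 11 ≠ 1
  small : Nat.card F ≤ 111 → (Nat.card F).Prime

/-- the centraliser of `P` is monomial -/
def Mon (ω : Fˣ) (G : Subgroup (GL (ZMod r) F)) : Prop :=
  ∀ y ∈ G, Commute y (dp r ω 2) → ∃ (v : ZMod r → Fˣ) (σ : Perm (ZMod r)),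
    (∀ i, σ i = i ∨ σ i = -i) ∧ y = dg v * pm σ

theorem Fld1.prime {ω : Fˣ} (h : Fld1 r ω) : r.Prime := by rw [h.hr]; norm_num

theorem half11 : Half 11 5 := ⟨by decide, by decide, by decide, by decide⟩

end defs

/-- a statement about all overgroups -/
def All1 (P : ∀ (F : Type u) [Field F] (r : ℕ) [NeZero r] (_ : Fˣ)
    (_ : Subgroup (GL (ZMod r) F)), Prop) : Prop :=
  ∀ (F : Type u) [Field F] [Finite F] (r : ℕ) [NeZero r] (ω : Fˣ) (G : Subgroup (GL (ZMod r) F)),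
    Fld1 r ω → Base ω G → P F r ω G

def JobEL1 : Prop := All1.{u} fun _ _ _ _ _ G => ∀ i φ, φ i = 0 → φ ≠ 0 → Row G i φ → Big G

def JobHG1 : Prop := JobDKb.{u} → JobEL1.{u} → All1.{u} fun F _ _ _ _ G => ∀ ζ : Fˣ, hm 0 ζ ∈ G →
  ((∀ m, 1 ≤ m → m ≤ 5 → ζ ^ m ≠ 1) ∨ (Nat.card F = 67 ∧ orderOf ζ = 3) ∨
    (Nat.card F = 89 ∧ orderOf ζ = 4)) → Big G

def JobSGN1 : Prop := JobDKb.{u} → JobDKs → JobEL1.{u} → All1.{u} fun F _ _ _ _ G =>
  Nat.card F = 23 → hm 0 (-1) ∈ G → Big G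

def JobA1 : Prop := JobDKa.{u} → JobDKb.{u} → JobEL1.{u} → All1.{u} fun _ _ _ _ ω G =>
  (ND G ∨ (¬ Big G ∧ ∃ ζ, ζ ≠ 1 ∧ hm 0 ζ ∈ G)) → Mon ω G

def JobSW1 : Prop := All1.{u} fun F _ r _ _ G => ND G →
  ∀ (v : ZMod r → Fˣ) (σ : Perm (ZMod r)), (∀ i, σ i = i ∨ σ i = -i) → dg v * pm σ ∈ G →
    Commute (dg v * pm σ) (tt F r) → σ = 1 ∨ σ = af (-1) 0 ∨ pm (swap 1 (-1)) ∈ G

def JobTR1 : Prop := JobDKb.{u} → JobEL1.{u} → All1.{u} fun _ _ _ _ _ G =>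
  pm (swap 1 (-1)) ∈ G → Big G

def JobFR1 : Prop := All1.{u} fun F _ r _ ω G => YP ω G → ∀ L ≤ G, (∀ l ∈ L, Commute l (tt F r)) →
  (∀ c ∈ G, Commute c (tt F r) → ∀ l ∈ L, c * l * c⁻¹ ∈ L) → dp r ω 2 ∈ L → sc _ ω ∉ L →
  ∀ c ∈ G, Commute c (tt F r) → ∃ l ∈ L, ∃ (μ : Fˣ) (a : (ZMod r)ˣ), c = l * sc _ μ * hh F a

def JobKS1 : Prop := All1.{u} fun F _ r _ ω G => YP ω G →
  ∀ k ∈ G, Commute k (tt F r) → k.val * (1 - (tt F r).val) = 1 - (tt F r).val →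
    ∀ n : ℕ, k ^ 2 ^ n = 1 → k = 1 ∨ k = sc _ (-1) * tt F r

/-- The diagonal elements produce homologies. -/
theorem hm_of_dg {F : Type u} [Field F] {r : ℕ} [NeZero r] {ω : Fˣ} {G : Subgroup (GL (ZMod r) F)}
    (hr : r.Prime) (hb : Base ω G) {v : ZMod r → Fˣ} (hv : dg v ∈ G) (i : ZMod r) :
    hm 0 (v i ^ r * (∏ j, v j)⁻¹) ∈ G := by
  have := Fact.mk hr
  have h1 : (∏ a : (ZMod r)ˣ, fun j => v (a * j + i)) ∈ G.comap dg :=
    Subgroup.prod_mem _ fun a _ => by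
      have := G.mul_mem (G.mul_mem (G.inv_mem (hb.af a i)) hv) (G.inv_mem (G.inv_mem (hb.af a i)))
      rwa [← map_inv, pm_conj_dg] at this
  have h2 : ∀ j : ZMod r, j ≠ 0 → v i * ∏ a : (ZMod r)ˣ, v (a * j + i) = ∏ j, v j := fun j hj => by
    rw [← Equiv.prod_comp (af (Units.mk0 j hj) i) v,
      ← Finset.mul_prod_erase _ _ (Finset.mem_univ (0 : ZMod r))]
    simp only [af_apply, mul_zero, zero_add, Units.val_mk0, mul_right_inj]
    exact Finset.prod_bij (fun a _ => (a : ZMod r)) (by simp) (fun _ _ _ _ => Units.ext)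
      (fun b hb => ⟨Units.mk0 b (by simpa using hb), by simp, rfl⟩) fun a _ => by rw [mul_comm]
  convert G.mul_mem (hb.sc (v i * (∏ j, v j)⁻¹)) h1 using 1
  rw [← dg_const, ← map_mul, hm]
  congr 1
  ext1 j
  by_cases hj : j = 0
  · simp only [hj, Pi.mulSingle_eq_same, Pi.mul_apply, Finset.prod_apply, mul_zero, zero_add,
      Finset.prod_const, Finset.card_univ, ZMod.card_units]
    rw [mul_right_comm, ← pow_succ', Nat.sub_add_cancel hr.one_le]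
  · rw [Pi.mulSingle_eq_of_ne hj, Pi.mul_apply, Finset.prod_apply, mul_right_comm, h2 j hj,
      mul_inv_cancel]

end H53.C6
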