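import Cfsg.Agent.H53.C6Kit

/-! Tower C6P: specification of the jobs (blueprint `C6P.md`, part 2) and the assembly. -/

set_option autoImplicit false
set_option linter.unusedSectionVars false

namespace H53.C6

open Matrix Cfsg.Geo H25 Equiv

universe u

section defs

variable {F : Type u} [Field F] {r : ℕ} [NeZero r]

/-- `F = 𝔽_p(ω)` has odd degree over the prime field, `ω` has order `r ∈ {5, 7}` -/
structure Fld (r : ℕ) (ω : Fˣ) : Prop where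
  hr : r = 5 ∨ r = 7
  ord : orderOf ω = r
  gen : ∀ K : Subfield F, (ω : F) ∈ K → K = ⊤
  nsq : ¬ IsSquare (Nat.card F)

/-- the excluded characteristics -/
structure OddF (F : Type u) [Field F] : Prop where
  h2 : (2 : F) ≠ 0
  h3 : (3 : F) ≠ 0
  h5 : (5 : F) ≠ 0
  h7 : (7 : F) ≠ 0
  h13 : (13 : F) ≠ 0
  h19 : (19 : F) ≠ 0
  h11 : (11 : F) = 0 → ∀ z : F, z ^ 3 = 1 → z = 1

/-- `G` contains the scalars and the generators of the normaliser -/
structure Base (ω : Fˣ) (G : Subgroup (GL (ZMod r) F)) : Prop where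
  sc : ∀ c, sc (ZMod r) c ∈ G
  af : ∀ a b, pm (af a b) ∈ G
  d : dp r ω 1 ∈ G
  p : dp r ω 2 ∈ G
  ph : Ph r ω ∈ G

def Big (G : Subgroup (GL (ZMod r) F)) : Prop := specialLinear (ZMod r) F ≤ G

/-- the diagonal elements if there is no homology -/
def ND (G : Subgroup (GL (ZMod r) F)) : Prop := ∀ v, dg v ∈ G → ∀ i, v i ^ r = ∏ j, v j

def RD (G : Subgroup (GL (ZMod r) F)) : Prop := ∀ v, dg v ∈ G → ∀ i j, v i ^ r = v j ^ r

def YD (ω : Fˣ) (G : Subgroup (GL (ZMod r) F)) : Prop :=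
  ∀ y ∈ G, Commute y (dp r ω 2) → Commute y (tt F r) → ∃ v, y = dg v ∨ y = dg v * tt F r

def YP (ω : Fˣ) (G : Subgroup (GL (ZMod r) F)) : Prop :=
  ∀ y ∈ G, Commute y (dp r ω 2) → Commute y (tt F r) → ∃ (c : Fˣ) (n : ℕ),
    y = sc _ c * dp r ω 2 ^ n ∨ y = sc _ c * dp r ω 2 ^ n * tt F r

/-- `t` is the only involution of its centraliser modulo scalars -/
def UI (G : Subgroup (GL (ZMod r) F)) : Prop :=
  ∀ g ∈ G, Commute g (tt F r) → g * g ∈ scalars (ZMod r) F →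
    g ∈ scalars (ZMod r) F ∨ g * tt F r ∈ scalars (ZMod r) F

theorem Base.xx {ω : Fˣ} {G : Subgroup (GL (ZMod r) F)} (h : Base ω G) : xx F r ∈ G := h.af _ _

theorem Base.hh {ω : Fˣ} {G : Subgroup (GL (ZMod r) F)} (h : Base ω G) (a : (ZMod r)ˣ) :
    hh F a ∈ G := h.af _ _

theorem Base.tt {ω : Fˣ} {G : Subgroup (GL (ZMod r) F)} (h : Base ω G) : tt F r ∈ G := h.af _ _

theorem Base.conj {ω : Fˣ} {G : Subgroup (GL (ZMod r) F)} (h : Base ω G) (a : (ZMod r)ˣ)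
    (b : ZMod r) {g : GL (ZMod r) F} (hg : g ∈ G) :
    pm (C6.af a b) * g * (pm (C6.af a b))⁻¹ ∈ G :=
  G.mul_mem (G.mul_mem (h.af a b) hg) (G.inv_mem (h.af a b))

theorem Base.hm {ω : Fˣ} {G : Subgroup (GL (ZMod r) F)} (h : Base ω G) {i : ZMod r} {ζ : Fˣ}
    (hi : hm i ζ ∈ G) (j : ZMod r) : hm j ζ ∈ G := by
  simpa [pm_conj_hm] using h.conj 1 (j - i) hi

theorem Fld.prime {ω : Fˣ} (h : Fld r ω) : r.Prime := by
  rcases h.hr with rfl | rfl <;> norm_num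

end defs

/-- a statement about all overgroups -/
def All (P : ∀ (F : Type u) [Field F] (r : ℕ) [NeZero r] (_ : Fˣ)
    (_ : Subgroup (GL (ZMod r) F)), Prop) : Prop :=
  ∀ (F : Type u) [Field F] [Finite F] (r : ℕ) [NeZero r] (ω : Fˣ) (G : Subgroup (GL (ZMod r) F)),
    Fld r ω → Base ω G → P F r ω G

def JobEL : Prop := All.{u} fun _ _ _ _ _ G => ∀ i φ, φ i = 0 → φ ≠ 0 → Row G i φ → Big G

def JobHOM : Prop := JobDKb.{u} → JobEL.{u} → All.{u} fun F _ _ _ _ G => OddF F →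
  ∀ (ζ : Fˣ) (l : ℕ), l.Prime → l ≠ 2 → orderOf ζ = l → hm 0 ζ ∈ G → Big G

def JobSGN : Prop := JobDKb.{u} → JobDKs → JobEL.{u} → All.{u} fun F _ _ _ _ G => OddF F →
  hm 0 (-1) ∈ G → Big G

def JobA : Prop := JobDKa.{u} → All.{u} fun F _ r _ ω G => (2 : F) ≠ 0 → ND G →
  ∀ y ∈ G, Commute y (dp r ω 2) → ∃ (v : ZMod r → Fˣ) (σ : Perm (ZMod r)),
    (∀ i, σ i = i ∨ σ i = -i) ∧ y = dg v * pm σ

def JobSW : Prop := All.{u} fun F _ r _ _ G => (2 : F) ≠ 0 → ND G →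
  ∀ (v : ZMod r → Fˣ) (σ : Perm (ZMod r)), (∀ i, σ i = i ∨ σ i = -i) → dg v * pm σ ∈ G →
    Commute (dg v * pm σ) (tt F r) → σ = 1 ∨ σ = af (-1) 0 ∨ pm (swap 1 (-1)) ∈ G

def JobEV : Prop := All.{u} fun _ _ r _ ω G => ND G → YD ω G → YP ω G ∨ (r = 7 ∧ dp r ω 4 ∈ G)

def JobTR : Prop := JobDKb.{u} → JobEL.{u} → All.{u} fun F _ _ _ _ G => OddF F →
  pm (swap 1 (-1)) ∈ G → Big G

def JobFR : Prop := All.{u} fun F _ r _ ω G => YP ω G → ∀ L ≤ G, (∀ l ∈ L, Commute l (tt F r)) →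
  (∀ c ∈ G, Commute c (tt F r) → ∀ l ∈ L, c * l * c⁻¹ ∈ L) → dp r ω 2 ∈ L → sc _ ω ∉ L →
  ∀ c ∈ G, Commute c (tt F r) → ∃ l ∈ L, ∃ (μ : Fˣ) (a : (ZMod r)ˣ), c = l * sc _ μ * hh F a

def JobKS : Prop := All.{u} fun F _ r _ ω G => (2 : F) ≠ 0 → YP ω G →
  ∀ k ∈ G, Commute k (tt F r) → k.val * (1 - (tt F r).val) = 1 - (tt F r).val →
    ∀ n : ℕ, k ^ 2 ^ n = 1 → k = 1 ∨ k = sc _ (-1) * tt F r

def JobCT5 : Prop := JobFR.{u} → JobKS.{u} → All.{u} fun F _ r _ ω G => r = 5 → (2 : F) ≠ 0 →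
  YP ω G → UI G

def JobCT7 : Prop := JobFR.{u} → JobKS.{u} → JobINV3.{u} → All.{u} fun F _ r _ ω G => r = 7 →
  (2 : F) ≠ 0 → YP ω G → UI G

def JobQU : Prop := JobDKb.{u} → JobT3.{u} → All.{u} fun F _ r _ ω G => r = 7 → OddF F → ND G →
  YD ω G → dp r ω 4 ∉ G

def JobEND : Prop := All.{u} fun _ _ r _ ω G => RD G → UI G → G ≤ subgroupNormalizer (R6 r ω)

def JobQ8 : Prop := All.{u} fun F _ r _ ω G => r = 7 → Nat.card F = 8 → (ω : F) ^ 3 = ω + 1 →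
  Big G ∨ UI G

def JobWR : Prop := ∀ (F : Type u) [Field F] [Finite F] (r : ℕ) [NeZero r] (ω : Fˣ), Fld r ω →
  (∀ G : Subgroup (GL (ZMod r) F), Base ω G → G ≤ subgroupNormalizer (R6 r ω) ∨ Big G) →
  IsMaximalIn (specialLinear (ZMod r) F) (subgroupNormalizer (R6 r ω) ⊓ specialLinear (ZMod r) F)

def JobMOD : Prop := ∀ (F : Type u) [Field F] [Fintype F] (r : ℕ) [NeZero r] (ω : Fˣ),
  r ≠ 2 → orderOf ω = r → ∀ R : Subgroup (GL (ZMod r) F), IsLinearSymplecticTypeData r R →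
  IsMaximalIn (specialLinear (ZMod r) F) (subgroupNormalizer (R6 r ω) ⊓ specialLinear (ZMod r) F) →
  IsMaximalIn (specialLinear (ZMod r) F) (subgroupNormalizer R ⊓ specialLinear (ZMod r) F)

/-- Without homologies the `r`-th powers of diagonal elements are scalar. -/
theorem nd_of {F : Type u} [Field F] {r : ℕ} [NeZero r] {ω : Fˣ} {G : Subgroup (GL (ZMod r) F)}
    (hf : Fld r ω) (hb : Base ω G) (h : ∀ ζ, hm 0 ζ ∈ G → ζ = 1) : ND G := fun v hv i => by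
  have := Fact.mk hf.prime
  have h1 : (∏ a : (ZMod r)ˣ, fun j => v (a * j + i)) ∈ G.comap dg :=
    Subgroup.prod_mem _ fun a _ => by
      have := G.mul_mem (G.mul_mem (G.inv_mem (hb.af a i)) hv) (G.inv_mem (G.inv_mem (hb.af a i)))
      rwa [← map_inv, pm_conj_dg] at this
  have h2 : ∀ j : ZMod r, j ≠ 0 → v i * ∏ a : (ZMod r)ˣ, v (a * j + i) = ∏ j, v j := fun j hj => by
    rw [← Equiv.prod_comp (af (Units.mk0 j hj) i) v,
      ← Finset.mul_prod_erase _ _ (Finset.mem_univ (0 : ZMod r))]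
    simp only [af_apply, mul_zero, zero_add, Units.val_mk0, mul_right_inj]
    exact Finset.prod_bij (fun a _ => (a : ZMod r)) (by simp) (fun _ _ _ _ => Units.ext)
      (fun b hb => ⟨Units.mk0 b (by simpa using hb), by simp, rfl⟩) fun a _ => by rw [mul_comm]
  have h3 := h (v i ^ r * (∏ j, v j)⁻¹) (by
    convert G.mul_mem (hb.sc (v i * (∏ j, v j)⁻¹)) h1 using 1
    rw [← dg_const, ← map_mul, hm]
    congr 1
    ext1 j
    by_cases hj : j = 0
    · simp only [hj, Pi.mulSingle_eq_same, Pi.mul_apply, Finset.prod_apply, mul_zero, zero_add,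
        Finset.prod_const, Finset.card_univ, ZMod.card_units]
      rw [mul_right_comm, ← pow_succ', Nat.sub_add_cancel hf.prime.one_le]
    · rw [Pi.mulSingle_eq_of_ne hj, Pi.mul_apply, Finset.prod_apply, mul_right_comm, h2 j hj,
        mul_inv_cancel])
  exact mul_inv_eq_one.1 h3

theorem core (dka : JobDKa.{u}) (dkb : JobDKb.{u}) (dks : JobDKs) (el : JobEL.{u})
    (hom : JobHOM.{u}) (sgn : JobSGN.{u}) (ja : JobA.{u}) (sw : JobSW.{u}) (tr : JobTR.{u}) :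
    All.{u} fun F _ _ _ ω G => OddF F → Big G ∨ (ND G ∧ YD ω G) := by
  intro F _ _ r _ ω G hf hb ho
  refine or_iff_not_imp_left.2 fun hn => ?_
  have nd : ND G := nd_of hf hb fun ζ hζ => by_contra fun e => by
    obtain ⟨l, hl, k, hk⟩ := Nat.exists_prime_and_dvd (mt orderOf_eq_one_iff.1 e)
    have h0 : k ≠ 0 := by rintro rfl; exact (orderOf_pos ζ).ne' hk
    have h1 : orderOf (ζ ^ k) = l := by
      rw [orderOf_pow_of_dvd h0 ⟨l, by rw [hk, mul_comm]⟩, hk, Nat.mul_div_cancel _ (by omega)]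
    have h2 : hm 0 (ζ ^ k) ∈ G := hm_pow (0 : ZMod r) ζ k ▸ G.pow_mem hζ k
    by_cases h3 : l = 2
    · have h4 := pow_orderOf_eq_one (ζ ^ k)
      rw [h1, h3, sq, Units.ext_iff, Units.val_mul, Units.val_one, mul_self_eq_one_iff] at h4
      refine hn (sgn dkb dks el F r ω G hf hb ho ?_)
      rcases h4 with h4 | h4
      · rw [(Units.ext h4 : ζ ^ k = 1), orderOf_one] at h1; omega
      · exact (Units.ext h4 : ζ ^ k = -1) ▸ h2
    · exact hn (hom dkb el F r ω G hf hb ho _ l hl h3 h1 h2)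
  refine ⟨nd, fun y hy c1 c2 => ?_⟩
  obtain ⟨v, σ, h1, rfl⟩ := ja dka F r ω G hf hb ho.h2 nd y hy c1
  rcases sw F r ω G hf hb ho.h2 nd v σ h1 hy c2 with rfl | rfl | h
  · exact ⟨v, .inl (by simp)⟩
  · exact ⟨v, .inr rfl⟩
  · exact (hn (tr dkb el F r ω G hf hb ho h)).elim

end H53.C6
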