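import Cfsg.Agent.H53.CKSpec

/-! Interface of the tower SG (`blueprints/C3C6.md`, part 2): overgroups of the normaliser of a
Singer cycle in `SL_n(q)`, `n` prime, are 2-transitive on points. -/

set_option autoImplicit false

namespace H53.SG

open Finsupp MvPolynomial Module
open scoped Classical

universe u v

/-- variables: copy (`false` = x, `true` = y) and position `t` (the function `x ^ p ^ t`) -/
abbrev Vr (e n : ℕ) := Bool × ZMod (e * n)

/-- monomials -/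
abbrev Mon (e n : ℕ) := Vr e n →₀ ℕ

section defs

variable {e n : ℕ}

/-- the class of a position -/
def cl (t : ZMod (e * n)) : ZMod e := ZMod.castHom (dvd_mul_right e n) (ZMod e) t

/-- the next variable -/
def nx (v : Vr e n) : Vr e n := (v.1, v.2 + 1)

/-- reduced monomial -/
def Red (p : ℕ) (m : Mon e n) : Prop := ∀ v, m v < p

/-- digit sum of the two copies -/
def eta (m : Mon e n) (t : ZMod (e * n)) : ℕ := m (false, t) + m (true, t)

/-- undo a carry -/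
noncomputable def up (p : ℕ) (m : Mon e n) (v : Vr e n) : Mon e n :=
  m - single (nx v) 1 + single v p

/-- addition with carries `w`, result `δ` depending only on the class -/
structure Car (p : ℕ) (η δ w : ZMod (e * n) → ℕ) : Prop where
  w1 : ∀ t, w t ≤ 1
  lt : ∀ t, δ t < p
  per : ∀ t t', cl t = cl t' → δ t = δ t'
  eq : ∀ t, η t + w t = δ t + p * w (t + 1)

variable {K : Type v} [Field K]

/-- coefficient of `m` in `E a b Φ`, where `c` are the coefficients of `Φ` (`a ≠ b`) -/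
noncomputable def cE (c : Mon e n → K) (a b : ZMod (e * n)) (m : Mon e n) : K :=
  ∑ k : Bool, if m (k, a) = 0 then 0 else
    ((m (k, b) + 1 : ℕ) : K) * c (m - single (k, a) 1 + single (k, b) 1)

/-- the derivation `∑ k, X (k, a) ∂ / ∂ X (k, b)` -/
noncomputable def E (K : Type v) [Field K] (a b : ZMod (e * n)) :
    Module.End K (MvPolynomial (Vr e n) K) :=
  ∑ k : Bool, LinearMap.mulLeft K (X (k, a)) ∘ₗ (pderiv (k, b)).toLinearMap

/-- diagonal operator -/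
noncomputable def dop (f : Mon e n → K) : Module.End K (MvPolynomial (Vr e n) K) :=
  (basisMonomials (Vr e n) K).constr K fun m => monomial m (f m)

/-- weight of a variable minus one, for the window at the class `s` and the order `r` -/
def om (p r : ℕ) (s : ZMod e) (v : Vr e n) : ℕ :=
  if cl v.2 = s then 0 else if cl v.2 = s + 1 then p - 1 else r

/-- weighted finite differences of order `k` vanish -/
def FD (ω : Vr e n → ℕ) : ℕ → (Mon e n → K) → Prop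
  | 0, f => f = 0
  | k + 1, f => ∀ v, FD ω (k - ω v) fun m => f (m + single v 1) - f m
  decreasing_by omega

variable [NeZero (e * n)]

/-- degree -/
def dg (m : Mon e n) : ℕ := ∑ v, m v

/-- degree in the copy `k` and the class `s` -/
noncomputable def cd (m : Mon e n) (k : Bool) (s : ZMod e) : ℕ := ∑ t with cl t = s, m (k, t)

/-- `p`-adic value -/
def val (p : ℕ) (η : ZMod (e * n) → ℕ) : ℕ := ∑ t, η t * p ^ t.val

/-- exponent of `x` (`k = false`) or `y` -/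
def vc (p : ℕ) (m : Mon e n) (k : Bool) : ℕ := val p fun t => m (k, t)

/-- the monomials `x ^ a y ^ b` with `a + b = Q - 1`, `a, b ≠ 0`, `q - 1 ∣ a` -/
structure J0 (p : ℕ) (m : Mon e n) : Prop where
  eta : ∀ t, eta m t = p - 1
  x0 : ∃ t, m (false, t) ≠ 0
  y0 : ∃ t, m (true, t) ≠ 0
  dvd : p ^ e - 1 ∣ vc p m false

/-- substitution -/
noncomputable def sg (A : Matrix (ZMod (e * n)) (ZMod (e * n)) K) :
    MvPolynomial (Vr e n) K →ₐ[K] MvPolynomial (Vr e n) K :=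
  aeval fun v => ∑ t, A t v.2 • X (v.1, t)

/-- evaluation -/
noncomputable def ev (p : ℕ) (G : MvPolynomial (Vr e n) K) (x y : K) : K :=
  eval (fun v => (if v.1 then y else x) ^ p ^ v.2.val) G

/-- hypothesis of the first relation -/
def C1 (p : ℕ) (a b : ZMod (e * n)) (m : Mon e n) : Prop :=
  ∃ η δ w, Car p η δ w ∧ w a = w b ∧
    ∀ t, eta m t + (if t = b then 1 else 0) = η t + if t = a then 1 else 0

/-- hypothesis of the second relation -/
def C2 (p : ℕ) (a b : ZMod (e * n)) (m : Mon e n) : Prop :=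
  eta m a + p = eta m b + 2 ∧ eta m (a + 1) = eta m (b + 1) + 1

/-- no term lies one carry in another class above `m₀` -/
def NoOther (p : ℕ) (c : Mon e n → K) (s : ZMod e) (m₀ : Mon e n) : Prop :=
  ∀ m, c m ≠ 0 → ∀ k s', s' ≠ s → ¬ ∀ k' s'',
    cd m k' s'' + (if k' = k ∧ s'' = s' + 1 then 1 else 0) =
      cd m₀ k' s'' + if k' = k ∧ s'' = s' then p else 0

/-- first relation -/
def R1 (p : ℕ) (c : Mon e n → K) (D : ℕ) : Prop :=
  ∀ a b m, a ≠ b → cl a = cl b → Red p m → dg m = D → C1 p a b m → cE c a b m = 0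

/-- second relation -/
def R2 (p : ℕ) (c : Mon e n → K) (D : ℕ) : Prop :=
  2 ≤ e → ∀ a b m, a ≠ b → cl a = cl b → Red p m → dg m + (p - 1) = D → C2 p a b m →
    NoOther p c (cl a) m →
    cE c a b m + ∑ v with cl v.2 = cl a, (if m (nx v) = 0 then 0 else cE c a b (up p m v)) = 0

/-- support conditions -/
structure Sup (p : ℕ) (c : Mon e n → K) (D : ℕ) : Prop where
  red : ∀ m, c m ≠ 0 → Red p m
  deg : ∀ m, c m ≠ 0 → dg m ≤ D
  car : ∀ m, c m ≠ 0 → ∃ δ w, Car p (eta m) δ w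

/-- the terms of top degree -/
structure Top (p : ℕ) (c : Mon e n → K) (D : ℕ) : Prop where
  per : ∀ m, c m ≠ 0 → dg m = D → ∀ t t', cl t = cl t' → eta m t = eta m t'
  tri : ∀ m, c m ≠ 0 → dg m = D → ∀ t, eta m t = 0 ∨ eta m t = p - 1 ∨ eta m t = 2 * (p - 1)
  move : ∀ m, c m ≠ 0 → dg m = D → ∀ a b k, a ≠ b → cl a = cl b → eta m a = p - 1 →
    m (k, b) ≠ 0 → m (k, a) + 1 < p →
    c (m - single (k, b) 1 - single (!k, a) 1 + single (k, a) 1 + single (!k, b) 1) = c m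

/-- the matrices of the group -/
structure Dat (p r : ℕ) (𝒜 : Set (Matrix (ZMod (e * n)) (ZMod (e * n)) K)) (θ : K) : Prop where
  inv : ∀ A ∈ 𝒜, ∃ B ∈ 𝒜, A * B = 1 ∧ B * A = 1
  cls : ∀ A ∈ 𝒜, ∀ t' t, A t' t ≠ 0 → cl t' = cl t
  frob : ∀ A ∈ 𝒜, ∀ t' t, A (t' + 1) (t + 1) = A t' t ^ p
  diag : Matrix.diagonal (fun t => θ ^ p ^ t.val) ∈ 𝒜
  shift : ∃ A ∈ 𝒜, ∀ t' t, A t' t ≠ 0 ↔ t' = t + e
  nonmono : ∃ A ∈ 𝒜, ∃ t t₁ t₂, t₁ ≠ t₂ ∧ A t₁ t ≠ 0 ∧ A t₂ t ≠ 0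
  sep : ∀ (s : ZMod e) (α β : ZMod (e * n) → ℕ), (∀ t, α t ≠ 0 → cl t = s) →
    (∀ t, β t ≠ 0 → cl t = s) → ∑ t, α t = ∑ t, β t → ∑ t, α t ≤ 2 * r →
    θ ^ val p α = θ ^ val p β → α = β

/-- the two modes -/
def Mode (p r : ℕ) (c : Mon e n → K) : Prop :=
  (r = 1 ∧ ∀ m, c m ≠ 0 → ∀ t, eta m t = p - 1) ∨ (r = 3 ∧ (2 ≤ e ∨ 5 ≤ p))

/-- the diagonal operator used for the pair `a, b` -/
structure Dia (p r : ℕ) (c : Mon e n → K) (a b : ZMod (e * n)) (f : Mon e n → K) : Prop where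
  fd : FD (om p r (cl a)) (r + 1) f
  zero : ∀ m, c m ≠ 0 → f m = 0
  step : 2 ≤ e → ∀ m v, cl v.2 = cl a → f (m + single v p) = f (m + single (nx v) 1)
  c1 : ∀ m, C1 p a b m → f m ≠ 0 ∨ cE c a b m = 0
  c2 : 2 ≤ e → ∀ m, C2 p a b m → f m ≠ 0 ∨
    (cE c a b m = 0 ∧ ∀ v, cl v.2 = cl a → m (nx v) ≠ 0 → cE c a b (up p m v) = 0)

end defs

section kit

variable {e n : ℕ} {K : Type v} [Field K]

theorem dop_monomial (f : Mon e n → K) (m : Mon e n) (c : K) :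
    dop f (monomial m c) = monomial m (f m * c) := by
  have := (basisMonomials (Vr e n) K).constr_basis K (fun m => monomial m (f m)) m
  rw [coe_basisMonomials] at this
  rw [← mul_one c, ← smul_eq_mul, ← smul_monomial, map_smul, dop, this, smul_monomial]
  simp [mul_comm]

theorem coeff_dop (f : Mon e n → K) (G : MvPolynomial (Vr e n) K) (m : Mon e n) :
    coeff m (dop f G) = f m * coeff m G := by
  induction G using MvPolynomial.induction_on' with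
  | monomial m' c =>
    rw [dop_monomial, coeff_monomial, coeff_monomial]
    split_ifs with h <;> simp [h]
  | add G G' h h' => simp [h, h', mul_add]

theorem E_apply (a b : ZMod (e * n)) (G : MvPolynomial (Vr e n) K) :
    E K a b G = ∑ k : Bool, X (k, a) * pderiv (k, b) G := by
  simp [E]

theorem coeff_E {a b : ZMod (e * n)} (h : a ≠ b) (G : MvPolynomial (Vr e n) K) (m : Mon e n) :
    coeff m (E K a b G) = cE (fun m => coeff m G) a b m := by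
  rw [E_apply, coeff_sum, cE]
  refine Finset.sum_congr rfl fun k _ => ?_
  rw [coeff_X_mul', coeff_pderiv]
  by_cases h0 : m (k, a) = 0 <;> simp [h0, h.symm, mul_comm]

theorem cl_add (a b : ZMod (e * n)) : cl (a + b) = cl a + cl b := map_add _ a b

theorem cl_one : cl (1 : ZMod (e * n)) = 1 := map_one _

theorem cl_natCast (k : ℕ) : cl (k : ZMod (e * n)) = k := map_natCast _ k

end kit

/-- SG-M0: a Lie algebra of matrices. -/
def JobM0 : Prop :=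
  ∀ (K : Type v) [Field K] (ι : Type) [Fintype ι] [DecidableEq ι] (π : Equiv.Perm ι)
    (L : Submodule K (Matrix ι ι K)) (θ : ι → K) (P P' M M' : Matrix ι ι K),
    (Fintype.card ι).Prime → (∀ a b, ∃ k : ℕ, (π ^ k) a = b) →
    (∀ A ∈ L, ∀ B ∈ L, A * B - B * A ∈ L) → (∀ a, Matrix.single a a 1 ∈ L) →
    (∀ a, θ a ≠ 0) → (∀ a b, θ a ^ 2 = θ b ^ 2 → a = b) →
    (∀ A ∈ L, Matrix.diagonal θ * A * Matrix.diagonal (fun a => (θ a)⁻¹) ∈ L) →
    P * P' = 1 → (∀ a b, P a b ≠ 0 ↔ a = π b) → (∀ A ∈ L, P * A * P' ∈ L) →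
    M * M' = 1 → (∃ b a₁ a₂, a₁ ≠ a₂ ∧ M a₁ b ≠ 0 ∧ M a₂ b ≠ 0) → (∀ A ∈ L, M * A * M' ∈ L) →
    L = ⊤

/-- SG-OP: the operator lemma. -/
def JobOp : Prop :=
  JobM0.{v} → ∀ (p e n r : ℕ) [NeZero (e * n)] (K : Type v) [Field K] [Fintype K] [CharP K p]
    (𝒜 : Set (Matrix (ZMod (e * n)) (ZMod (e * n)) K)) (θ : K) (s : ZMod e)
    (W : Submodule K (MvPolynomial (Vr e n) K)) (Φ : MvPolynomial (Vr e n) K) (f : Mon e n → K),
    p.Prime → n.Prime → 1 ≤ r → Dat p r 𝒜 θ → (∀ A ∈ 𝒜, ∀ G ∈ W, sg A G ∈ W) →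
    (∀ a b, cl a = s → cl b = s → ∀ G ∈ W, E K a b G ∈ W) → (∀ A ∈ 𝒜, sg A Φ - Φ ∈ W) →
    FD (om p r s) (r + 1) f → (∀ G ∈ W, dop f G ∈ W) → dop f Φ ∈ W →
    ∀ a b, cl a = s → cl b = s → dop f (E K a b Φ) ∈ W

/-- normal form: a polynomial of degree `≤ D` vanishing as a function -/
def NF : Prop :=
  ∀ (p e n : ℕ) [NeZero (e * n)] (K : Type v) [Field K] [Fintype K] [CharP K p], p.Prime →
    Fintype.card K = p ^ (e * n) → ∀ (D : ℕ) (G : MvPolynomial (Vr e n) K),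
    (∀ m, coeff m G ≠ 0 → dg m ≤ D) → (∀ x y, ev p G x y = 0) →
    G ∈ Submodule.span K {Z | ∃ m v, dg m + p ≤ D ∧
      Z = monomial (m + single v p) (1 : K) - monomial (m + single (nx v) 1) 1}

/-- SG-RED: reduced polynomials and functions. -/
def JobRed : Prop :=
  NF.{v} ∧ ∀ (p e n : ℕ) [NeZero (e * n)] (K : Type v) [Field K] [Fintype K] [CharP K p],
    p.Prime → Fintype.card K = p ^ (e * n) →
    (∀ f : K → K → K, ∃ Φ : MvPolynomial (Vr e n) K,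
      (∀ m, coeff m Φ ≠ 0 → Red p m) ∧ ∀ x y, ev p Φ x y = f x y) ∧
    (∀ Φ : MvPolynomial (Vr e n) K, (∀ m, coeff m Φ ≠ 0 → Red p m) → ∀ α β γ : K,
      (∀ x y, ev p Φ (α * x) (β * y) = γ * ev p Φ x y) → ∀ m, coeff m Φ ≠ 0 →
      α ^ vc p m false * β ^ vc p m true = γ) ∧
    (∀ h : K →+ K, (∀ c x, c ^ p ^ e = c → h (c * x) = c * h x) →
      ∃ A : Matrix (ZMod (e * n)) (ZMod (e * n)) K, (∀ t' t, A t' t ≠ 0 → cl t' = cl t) ∧
        ∀ x t, h x ^ p ^ t.val = ∑ t', A t' t * x ^ p ^ t'.val) ∧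
    ∀ a : ZMod (e * n) → K, (∀ x : K, ∑ t, a t * x ^ p ^ t.val = 0) → a = 0

/-- SG-U: the diagonal operators. -/
def JobU : Prop :=
  ∀ (p e n r : ℕ) [NeZero (e * n)] (K : Type v) [Field K] [CharP K p] (c : Mon e n → K) (D : ℕ),
    p.Prime → 3 ≤ n → Sup p c D → Mode p r c → ∀ a b, a ≠ b → cl a = cl b → ∃ f, Dia p r c a b f

/-- SG-R1, SG-R2 (`R` is `R1` or `R2`). -/
def JobR (R : ∀ {e n : ℕ} {K : Type v} [Field K] [NeZero (e * n)], ℕ → (Mon e n → K) → ℕ → Prop) :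
    Prop :=
  JobM0.{v} → JobOp.{v} → NF.{v} → JobU.{v} →
  ∀ (p e n r : ℕ) [NeZero (e * n)] (K : Type v) [Field K] [Fintype K] [CharP K p]
    (𝒜 : Set (Matrix (ZMod (e * n)) (ZMod (e * n)) K)) (θ : K) (Φ : MvPolynomial (Vr e n) K)
    (D : ℕ), p.Prime → n.Prime → 3 ≤ n → Fintype.card K = p ^ (e * n) → Dat p r 𝒜 θ →
    (∀ A ∈ 𝒜, ∀ x y, ev p (sg A Φ) x y = ev p Φ x y) → Sup p (fun m => coeff m Φ) D →
    Mode p r (fun m => coeff m Φ) → R p (fun m => coeff m Φ) D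

/-- SG-NUM: carries and separation of weights. -/
def JobNum : Prop :=
  ∀ (p e n g μ : ℕ) [NeZero (e * n)], p.Prime → μ * g = p ^ e - 1 →
    (∀ η : ZMod (e * n) → ℕ, (∀ t, η t ≤ 2 * (p - 1)) → (∃ t, η t ≠ 0) →
      μ * ∑ i ∈ Finset.range n, (p ^ e) ^ i ∣ val p η →
      ∃ δ w, Car p η δ w ∧ (g = 1 → ∀ t, δ t = p - 1)) ∧
    ∀ r, 3 ≤ n → (g = 1 ∧ r = 1) ∨ (g = n ∧ r = 3 ∧ 6 ≤ μ * (n - 1)) →
      ∀ (s : ZMod e) (α β : ZMod (e * n) → ℕ), (∀ t, α t ≠ 0 → cl t = s) →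
      (∀ t, β t ≠ 0 → cl t = s) → ∑ t, α t = ∑ t, β t → ∑ t, α t ≤ 2 * r →
      val p α ≡ val p β [MOD μ * ∑ i ∈ Finset.range n, (p ^ e) ^ i] → α = β

/-- SG-C1: the first level. -/
def JobC1 : Prop :=
  ∀ (p e n : ℕ) [NeZero (e * n)] (K : Type v) [Field K] [CharP K p] (c : Mon e n → K) (D : ℕ),
    p.Prime → n.Prime → 3 ≤ n → Sup p c D → R1 p c D → Top p c D

/-- SG-C2: the second level. -/
def JobC2 : Prop :=
  ∀ (p e n : ℕ) [NeZero (e * n)] (K : Type v) [Field K] [CharP K p] (c : Mon e n → K) (D : ℕ),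
    p.Prime → 5 ≤ n → Sup p c D → Top p c D → R2 p c D →
    (∀ m, c m ≠ 0 → dg m = D → (∃ t, eta m t ≠ 0) → (∃ t, eta m t ≠ 2 * (p - 1)) →
      ∀ t, eta m t = p - 1) ∧
    (D = e * n * (p - 1) → ∀ m m', J0 p m → J0 p m' →
      (2 ≤ e ∨ ∑ t, m (false, t) = ∑ t, m' (false, t)) → c m = c m')

/-- SG-E1: the prime field. -/
def JobE1 : Prop :=
  ∀ (p e n g μ : ℕ) [NeZero (e * n)] (K : Type v) [Field K] [Fintype K] [CharP K p]
    (c : Mon e n → K), p.Prime → e = 1 → n.Prime → 5 ≤ n → Fintype.card K = p ^ (e * n) →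
    μ * g = p - 1 → (g = 1 ∨ g = n) →
    (∀ m m', J0 p m → J0 p m' → ∑ t, m (false, t) = ∑ t, m' (false, t) → c m = c m') →
    (∀ t t' : K, t ^ (μ * ∑ i ∈ Finset.range n, p ^ i) = 1 → t ^ (p - 1) ≠ 1 →
      t' ^ (μ * ∑ i ∈ Finset.range n, p ^ i) = 1 → t' ^ (p - 1) ≠ 1 →
      ∑ᶠ m ∈ {m | J0 p m}, c m * t ^ vc p m true = ∑ᶠ m ∈ {m | J0 p m}, c m * t' ^ vc p m true) →
    ∀ m m', J0 p m → J0 p m' → c m = c m'

/-- SG-EXC: exceptional characters and a permutation representation of small rank. -/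
def JobExc : Prop :=
  ∀ (G : Type v) [Group G] [Finite G] (Ω : Type v) [Fintype Ω] [MulAction G Ω]
    (Z A : Subgroup G) [Z.Normal] (k r : ℕ), Z ≤ A →
    (∀ a ∈ A, a ∉ Z → ∀ g, g * a * g⁻¹ * a⁻¹ ∈ Z ↔ g ∈ A) →
    (∀ a ∈ A, a ∉ Z → ∀ z ∈ Z, ∀ x : Ω, a • x ≠ z • x) → (∀ z ∈ Z, ∀ x : Ω, z • x = x → z = 1) →
    A.relIndex (Subgroup.normalizer (A : Set G)) ≤ k → 2 ≤ r → r * k < Z.relIndex A →
    (∀ s : Fin (r + 1) → Ω × Ω, ∃ i j, i ≠ j ∧ ∃ g : G, ∃ z ∈ Z,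
      (s j).1 = g • (s i).1 ∧ (s j).2 = (g * z) • (s i).2) →
    ∀ (R : Type v) [AddCommGroup R] (f : Ω → Ω → R),
      (∀ g : G, ∀ z ∈ Z, ∀ x y, f (g • x) ((g * z) • y) = f x y) →
      ∀ a ∈ A, a ∉ Z → ∀ a' ∈ A, a' ∉ Z → ∑ x, f x (a • x) = ∑ x, f x (a' • x)

/-- The theorem. -/
def Main : Prop :=
  ∀ (F : Type u) [Field F] [Finite F] (K : Type v) [Field K] [Algebra F K] [FiniteDimensional F K]
    (H : Subgroup (K ≃ₗ[F] K)), (finrank F K).Prime → 5 ≤ finrank F K →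
    (∀ g ∈ H, LinearMap.det (g : K →ₗ[F] K) = 1) →
    (∀ t : K, Algebra.norm F t = 1 → ∃ g ∈ H, ∀ x, g x = t * x) →
    (∃ g ∈ H, ∃ a : K, ∀ x, g x = a * x ^ Nat.card F) →
    (∃ g ∈ H, ∀ (a : K) (i : ℕ), ¬ ∀ x, g x = a * x ^ Nat.card F ^ i) → CK.T2 H

/-- SG-WRAP: the maximal subgroup. -/
def JobWrap : Prop :=
  CK.Main.{u, u} → Main.{u, u} → ∀ (F : Type u) [Field F] [Fintype F] (n : ℕ), n.Prime → 5 ≤ n →
    ∀ K : Subalgebra F (Matrix (Fin n) (Fin n) F), Cfsg.Geo.IsFieldSubalgebra n K →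
    Cfsg.Geo.IsMaximalIn (Cfsg.Geo.specialLinear (Fin n) F)
      (Cfsg.Geo.subalgebraNormalizer K ⊓ Cfsg.Geo.specialLinear (Fin n) F)

end H53.SG
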