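import Cfsg.Agent.H53.C6Spec

/-! Tower C6P: the fields of the two rows. -/

set_option autoImplicit false

namespace H53.C6

universe u

variable {F : Type u} [Field F] [Fintype F] {p e r : ℕ}

theorem fld_of (hp : p.Prime) [CharP F p] (he : e = 1 ∨ e = 3) (hc : Fintype.card F = p ^ e)
    (hr : r = 5 ∨ r = 7) (hm : e = 3 → ¬ r ∣ p - 1) {ω : Fˣ} (hω : orderOf ω = r) : Fld r ω := by
  refine ⟨hr, hω, fun K hK => ?_, fun ⟨m, h⟩ => ?_⟩
  · classical
    have := Fact.mk hp
    obtain ⟨j, -, hj⟩ := FiniteField.card K p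
    have h1 := Module.card_eq_pow_finrank (K := K) (V := F)
    rw [hj, hc, ← pow_mul, Nat.pow_right_inj hp.one_lt] at h1
    by_cases h2 : (j : ℕ) = e
    · exact SetLike.coe_injective ((set_fintype_card_eq_univ_iff (K : Set F)).1
        (hj.trans (by rw [hc, h2])))
    have h3 : (j : ℕ) = 1 := by
      rcases he with rfl | rfl
      · exact Nat.eq_one_of_mul_eq_one_right h1.symm
      · exact ((Nat.dvd_prime Nat.prime_three).1 ⟨_, h1⟩).resolve_right h2
    have h4 := FiniteField.pow_card_sub_one_eq_one (⟨ω, hK⟩ : K) (by simp [Subtype.ext_iff])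
    rw [hj, h3, pow_one] at h4
    exact (hm (by omega) (hω ▸ orderOf_dvd_of_pow_eq_one
      (Units.ext (by simpa using congrArg Subtype.val h4)))).elim
  · rw [Nat.card_eq_fintype_card, hc] at h
    have h0 : m ≠ 0 := by rintro rfl; exact pow_ne_zero e hp.ne_zero h
    have := congrArg (·.factorization p) h
    simp only [Nat.factorization_mul h0 h0, hp.factorization_pow, Finsupp.add_apply,
      Finsupp.single_eq_same] at this
    omega

theorem oddF_of (hp : p.Prime) [CharP F p] (he : e = 1 ∨ e = 3) (hc : Fintype.card F = p ^ e)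
    (h : p ∉ [2, 3, 5, 7, 13, 19]) : OddF F := by
  have key : ∀ n : ℕ, n.Prime → (n : F) = 0 → p = n := fun n hn e =>
    (Nat.prime_dvd_prime_iff_eq hp hn).1 ((CharP.cast_eq_zero_iff F p n).1 e)
  simp only [List.mem_cons, List.not_mem_nil, or_false, not_or] at h
  refine ⟨mt (key 2 (by norm_num)) h.1, mt (key 3 (by norm_num)) h.2.1,
    mt (key 5 (by norm_num)) h.2.2.1, mt (key 7 (by norm_num)) h.2.2.2.1,
    mt (key 13 (by norm_num)) h.2.2.2.2.1, mt (key 19 (by norm_num)) h.2.2.2.2.2, fun h11 z hz => ?_⟩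
  have h1 := FiniteField.pow_card z
  rw [hc, key 11 (by norm_num) h11] at h1
  have h2 : z ^ 2 = z := by
    rcases he with rfl | rfl
    · rwa [show 11 ^ 1 = 3 * 3 + 2 from rfl, pow_add, pow_mul, hz, one_pow, one_mul] at h1
    · rwa [show 11 ^ 3 = 3 * 443 + 2 from rfl, pow_add, pow_mul, hz, one_pow, one_mul] at h1
  linear_combination hz - (z + 1) * h2

theorem exists_order (hr : r.Prime) (h : r ∣ Fintype.card F - 1) : ∃ ω : Fˣ, orderOf ω = r := by
  classical
  have := Fact.mk hr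
  exact exists_prime_orderOf_dvd_card r (by rwa [Fintype.card_units])

theorem exists_order8 (hc : Fintype.card F = 8) :
    ∃ ω : Fˣ, orderOf ω = 7 ∧ (ω : F) ^ 3 = ω + 1 := by
  obtain ⟨ω, hω⟩ := exists_order (F := F) (r := 7) (by norm_num) (by rw [hc])
  have h2 : (2 : F) = 0 := by
    have := FiniteField.cast_card_eq_zero F
    rw [hc] at this
    exact pow_eq_zero_iff (n := 3) (by norm_num) |>.1 (by rw [← this]; norm_num)
  have h7 : (ω : F) ^ 7 = 1 := (prim hω).pow_eq_one
  have h1 : (ω : F) - 1 ≠ 0 := sub_ne_zero.2 ((prim hω).ne_one (by norm_num))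
  have h3 : ((ω : F) ^ 3 - (ω + 1)) * (ω ^ 3 - (ω ^ 2 + 1)) = 0 := mul_left_cancel₀ h1 (by grind)
  rcases mul_eq_zero.1 h3 with h | h
  · exact ⟨ω, hω, sub_eq_zero.1 h⟩
  · refine ⟨ω ^ 6, by rw [Nat.Coprime.orderOf_pow (by rw [hω]; norm_num), hω], ?_⟩
    simp only [Units.val_pow_eq_pow_val]
    grind

end H53.C6
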