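import Cfsg.Agent.H53.C6Spec

/-! Tower C6P: the action of the centraliser of `t` on the odd functions. -/

set_option autoImplicit false
set_option linter.unusedSectionVars false

namespace H53.C6

open Matrix Cfsg.Geo H25 Equiv

universe u

variable {F : Type u} [Field F] {r : ℕ} [NeZero r] {m : ℕ}

variable (r) in
/-- the indices `1, …, m` -/
def ix (k : Fin m) : ZMod r := ((k.val + 1 : ℕ) : ZMod r)

/-- `0, ±1, …, ±m` are the elements of `ZMod r` -/
structure Half (r m : ℕ) : Prop where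
  cover : ∀ i : ZMod r, i = 0 ∨ ∃ k : Fin m, i = ix r k ∨ i = -ix r k
  inj : ∀ k l : Fin m, ix r k = ix r l → k = l
  ne : ∀ k l : Fin m, ix r k ≠ -ix r l
  ne0 : ∀ k : Fin m, ix r k ≠ 0

theorem half5 : Half 5 2 := ⟨by decide, by decide, by decide, by decide⟩

theorem half7 : Half 7 3 := ⟨by decide, by decide, by decide, by decide⟩

variable (F r m) in
/-- the columns `e_k - e_{-k}` -/
def Bod : Matrix (ZMod r) (Fin m) F :=
  of fun i k => (if i = ix r k then 1 else 0) - if i = -ix r k then 1 else 0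

variable (m) in
/-- the matrix of `c` on the odd functions -/
def odm (c : Matrix (ZMod r) (ZMod r) F) : Matrix (Fin m) (Fin m) F :=
  of fun k l => c (ix r k) (ix r l) - c (ix r k) (-ix r l)

theorem mul_Bod_apply {κ : Type} (c : Matrix κ (ZMod r) F) (i : κ) (l : Fin m) :
    (c * Bod F r m) i l = c i (ix r l) - c i (-ix r l) := by
  simp [mul_apply, Bod, mul_sub]

theorem Half.ix_inj (h : Half r m) {k l : Fin m} : ix r k = ix r l ↔ k = l :=
  ⟨h.inj k l, congrArg _⟩

theorem Half.Bod_mul_ix (h : Half r m) {κ : Type} (A : Matrix (Fin m) κ F) (k : Fin m) (j : κ) :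
    (Bod F r m * A) (ix r k) j = A k j := by
  simp [mul_apply, Bod, h.ix_inj, h.ne]

theorem Half.Bod_mul_neg (h : Half r m) {κ : Type} (A : Matrix (Fin m) κ F) (k : Fin m) (j : κ) :
    (Bod F r m * A) (-ix r k) j = -A k j := by
  simp [mul_apply, Bod, h.ix_inj, (h.ne _ _).symm]

theorem Half.Bod_mul_zero (h : Half r m) {κ : Type} (A : Matrix (Fin m) κ F) (j : κ) :
    (Bod F r m * A) 0 j = 0 := by
  simp [mul_apply, Bod, (h.ne0 _).symm, h.ne0]

theorem Half.Bod_inj (h : Half r m) {κ : Type} {A B : Matrix (Fin m) κ F}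
    (e : Bod F r m * A = Bod F r m * B) : A = B := by
  ext k j; rw [← h.Bod_mul_ix A, e, h.Bod_mul_ix]

theorem Half.mul_Bod (h : Half r m) {c : GL (ZMod r) F} (hc : Commute c (tt F r)) :
    c.val * Bod F r m = Bod F r m * odm m c.val := by
  ext i l
  have := comm_tt_iff.1 hc
  rw [mul_Bod_apply]
  rcases h.cover i with rfl | ⟨k, rfl | rfl⟩
  · rw [h.Bod_mul_zero, ← this 0, neg_zero, sub_self]
  · rw [h.Bod_mul_ix]; rfl
  · rw [h.Bod_mul_neg, this, ← this, neg_neg]; simp [odm]

theorem mem_cent_tt {c : GL (ZMod r) F} :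
    c ∈ Subgroup.centralizer {tt F r} ↔ Commute c (tt F r) := Subgroup.mem_centralizer_singleton_iff

/-- the action of the centraliser of `t` on the odd functions -/
noncomputable def od (h : Half r m) : Subgroup.centralizer {tt F r} →* GL (Fin m) F :=
  MonoidHom.toHomUnits
    { toFun := fun c => odm m c.1.val
      map_one' := h.Bod_inj (by rw [← h.mul_Bod (mem_cent_tt.1 (Subtype.prop _))]; simp)
      map_mul' := fun a b => h.Bod_inj (by
        rw [← h.mul_Bod (mem_cent_tt.1 (a * b).2), ← Matrix.mul_assoc,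
          ← h.mul_Bod (mem_cent_tt.1 a.2), Matrix.mul_assoc, ← h.mul_Bod (mem_cent_tt.1 b.2),
          ← Matrix.mul_assoc]; rfl) }

theorem od_val (h : Half r m) (c : Subgroup.centralizer {tt F r}) :
    (od h c).val = odm m c.1.val := rfl

theorem odm_eq_one_iff (h : Half r m) {c : GL (ZMod r) F} (hc : Commute c (tt F r)) :
    odm m c.val = 1 ↔ c.val * (1 - (tt F r).val) = 1 - (tt F r).val := by
  constructor
  · intro e
    have e1 := h.mul_Bod hc
    rw [e, Matrix.mul_one, ← Matrix.ext_iff] at e1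
    simp only [mul_Bod_apply] at e1
    ext i j
    rw [mul_sub, Matrix.mul_one, tt, hh, Matrix.sub_apply, mul_pm_apply, Matrix.sub_apply, pm_apply]
    rcases h.cover j with rfl | ⟨k, rfl | rfl⟩
    · simp [one_apply]
    · simpa [Bod, one_apply] using e1 i k
    · simpa [Bod, one_apply] using congrArg Neg.neg (e1 i k)
  · intro e
    ext k l
    have := congrFun (congrFun e (ix r k)) (ix r l)
    rw [mul_sub, Matrix.mul_one, tt, hh, Matrix.sub_apply, mul_pm_apply, Matrix.sub_apply,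
      pm_apply] at this
    simpa [odm, one_apply, h.ix_inj, h.ne] using this

theorem od_eq_one_iff (h : Half r m) (c : Subgroup.centralizer {tt F r}) :
    od h c = 1 ↔ c.1.val * (1 - (tt F r).val) = 1 - (tt F r).val := by
  rw [Units.ext_iff, od_val, Units.val_one, odm_eq_one_iff h (mem_cent_tt.1 c.2)]

theorem odm_dg (h : Half r m) (v : ZMod r → Fˣ) :
    odm m (dg v).val = diagonal fun k => (v (ix r k) : F) := by
  ext k l; simp [odm, dg_val, diagonal_apply, h.ix_inj, h.ne]

theorem odm_sc (h : Half r m) (c : Fˣ) : odm m (sc (ZMod r) c).val = (c : F) • 1 := by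
  rw [← dg_const, odm_dg h, smul_one_eq_diagonal]

theorem odm_tt (h : Half r m) : odm m (tt F r).val = -1 := by
  ext k l; simp [odm, tt_apply, one_apply, h.ix_inj, h.ne]

theorem odm_h5 (a : (ZMod 5)ˣ) (ha : (a : ZMod 5) = 2) : odm 2 (hh F a).val = !![0, -1; 1, 0] := by
  ext k l
  fin_cases k <;> fin_cases l <;> simp +decide [odm, hh, pm_apply, ha, ix]

theorem odm_h7 (a : (ZMod 7)ˣ) (ha : (a : ZMod 7) = 2) :
    odm 3 (hh F a).val = !![0, 0, -1; 1, 0, 0; 0, -1, 0] := by
  ext k l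
  fin_cases k <;> fin_cases l <;> simp +decide [odm, hh, pm_apply, ha, ix]

theorem odm_Ph7 {ω : Fˣ} (h : orderOf ω = 7) : odm 3 (Ph 7 ω).val =
    !![(ω : F) - ω ^ 6, ω ^ 2 - ω ^ 5, ω ^ 3 - ω ^ 4; ω ^ 2 - ω ^ 5, ω ^ 4 - ω ^ 3, ω ^ 6 - ω;
      ω ^ 3 - ω ^ 4, ω ^ 6 - ω, ω ^ 2 - ω ^ 5] := by
  ext k l
  fin_cases k <;> fin_cases l <;> simp only [odm, of_apply, Ph_apply h, w, Units.val_pow_eq_pow_val] <;>
    first | rfl | exact congrArg₂ _ (pow_one _) rfl | exact congrArg₂ _ rfl (pow_one _)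

end H53.C6
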