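import Cfsg.Agent.H53.C6Od

/-! Tower C6P, the case `r = 7`, `q = 8` (blueprint `C6P.md`, part 3). -/

set_option autoImplicit false
set_option linter.unusedSectionVars false

namespace H53.C6

open Matrix Cfsg.Geo H25 Equiv

universe u

section defs

variable {F : Type u} [Field F]

structure Q8 (ω : Fˣ) (G : Subgroup (GL (ZMod 7) F)) : Prop where
  fld : Fld 7 ω
  base : Base ω G
  card : Nat.card F = 8
  rel : (ω : F) ^ 3 = ω + 1

/-- the matrix `M` is an element of `G` -/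
def In {ι : Type} [Fintype ι] [DecidableEq ι] (G : Subgroup (GL ι F)) (M : Matrix ι ι F) : Prop :=
  ∃ g ∈ G, g.val = M

/-- the unipotent matrices acting trivially on the even functions and modulo the odd ones -/
def qm (m : Matrix (Fin 3) (Fin 3) F) : Matrix (ZMod 7) (ZMod 7) F :=
  1 + Bod F 7 3 * m * (Bod F 7 3)ᵀ

/-- the same with `e₀ ↦ e₀ + a` -/
def ke (a : Fin 3 → F) (m : Matrix (Fin 3) (Fin 3) F) : Matrix (ZMod 7) (ZMod 7) F :=
  qm m + vecMulVec (Bod F 7 3 *ᵥ a) (Pi.single 0 1)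

def MM (G : Subgroup (GL (ZMod 7) F)) : Prop := ∀ m, In G (qm m) → m = 0 ∨ m = 1

def KT (G : Subgroup (GL (ZMod 7) F)) : Prop :=
  ∀ k ∈ G, Commute k (tt F 7) → odm 3 k.val = 1 → k = 1 ∨ k = tt F 7

/-- the straight line programs -/
structure SS (ω : Fˣ) (G : Subgroup (GL (ZMod 7) F)) : Prop where
  q : dp 7 ω 4 ∈ G → Big G
  tl : ∀ γ : F, γ ≠ 0 → In G (qm (diagonal (γ • ![(ω : F) ^ 4, ω ^ 2, ω]))) → Big G
  sc : ∀ γ : F, γ ≠ 0 → γ ≠ 1 → In G (qm (γ • 1)) → Big G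
  ex : In G (ke ![1, 1, 1] !![0, 1, 0; 0, 0, 1; 1, 0, 0]) → Big G

variable [Finite F] {ω : Fˣ} {G : Subgroup (GL (ZMod 7) F)}

theorem Q8.pow7 (h : Q8 ω G) {a : F} (ha : a ≠ 0) : a ^ 7 = 1 := by
  have := Fintype.ofFinite F
  have h1 := FiniteField.pow_card_sub_one_eq_one a ha
  rwa [← Nat.card_eq_fintype_card, h.card] at h1

theorem Q8.two (h : Q8 ω G) : (2 : F) = 0 := by
  have := h.pow7 (a := -1) (by simp)
  linear_combination -this

theorem Q8.exists_w (h : Q8 ω G) (c : Fˣ) : ∃ i : ZMod 7, c = w ω i :=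
  C6.exists_w h.fld.ord (Units.ext (by simpa using h.pow7 c.ne_zero))

theorem Bod_tr_Bod (h : (2 : F) = 0) : (Bod F 7 3)ᵀ * Bod F 7 3 = 0 := by
  ext k l
  rw [mul_Bod_apply]
  simp only [transpose_apply, Bod, of_apply, half7.ix_inj, half7.ne, (half7.ne _ _).symm,
    if_false, Matrix.zero_apply, neg_inj]
  split_ifs
  · linear_combination h
  · simp

theorem Half.Bod_mul_tr {r m : ℕ} [NeZero r] (h : Half r m) :
    Bod F r m * (Bod F r m)ᵀ = 1 - (tt F r).val := by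
  ext i j
  rw [Matrix.sub_apply, tt_apply, one_apply]
  rcases h.cover i with rfl | ⟨k, rfl | rfl⟩
  · simp [h.Bod_mul_zero, eq_comm]
  · rw [h.Bod_mul_ix]; simp [Bod, eq_comm, neg_eq_iff_eq_neg]
  · rw [h.Bod_mul_neg]; simp [Bod, eq_comm, neg_eq_iff_eq_neg]

theorem qm_mul (h : (2 : F) = 0) (m m' : Matrix (Fin 3) (Fin 3) F) : qm m * qm m' = qm (m + m') := by
  simp only [qm, Matrix.mul_add, Matrix.add_mul, Matrix.mul_one, Matrix.one_mul, Matrix.mul_assoc]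
  rw [← Matrix.mul_assoc _ (Bod F 7 3), Bod_tr_Bod h]
  simp [add_assoc]

theorem qm_zero : qm (0 : Matrix (Fin 3) (Fin 3) F) = 1 := by simp [qm]

theorem qm_one (h : (2 : F) = 0) : qm (1 : Matrix (Fin 3) (Fin 3) F) = (tt F 7).val := by
  rw [qm, Matrix.mul_one, half7.Bod_mul_tr]
  ext i j
  simp only [Matrix.add_apply, Matrix.sub_apply]
  linear_combination ((1 : Matrix (ZMod 7) (ZMod 7) F) i j - (tt F 7).val i j) * h

/-- Conjugation by an element of the centraliser of `t`. -/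
theorem conj_qm {c : GL (ZMod 7) F} (hc : Commute c (tt F 7))
    (m : Matrix (Fin 3) (Fin 3) F) :
    c.val * qm m * (c⁻¹).val = qm (odm 3 c.val * m * odm 3 (c⁻¹).val) := by
  have e1 := half7.mul_Bod hc
  have e2 := half7.mul_Bod hc.inv_left
  have e4 : (Bod F 7 3)ᵀ * (c⁻¹).val = odm 3 (c⁻¹).val * (Bod F 7 3)ᵀ := half7.Bod_inj (by
    rw [← Matrix.mul_assoc, ← Matrix.mul_assoc, ← e2, Matrix.mul_assoc (c⁻¹).val, half7.Bod_mul_tr,
      sub_mul, mul_sub, ← Units.val_mul, ← Units.val_mul, hc.inv_left.eq, Matrix.mul_one,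
      Matrix.one_mul])
  rw [qm, qm, Matrix.mul_add, Matrix.add_mul, Matrix.mul_one, Units.mul_inv, ← Matrix.mul_assoc,
    ← Matrix.mul_assoc, e1, Matrix.mul_assoc _ _ (c⁻¹).val, e4]
  simp only [Matrix.mul_assoc]

end defs

def All8 (P : ∀ (F : Type u) [Field F] (_ : Fˣ) (_ : Subgroup (GL (ZMod 7) F)), Prop) : Prop :=
  ∀ (F : Type u) [Field F] [Finite F] (ω : Fˣ) (G : Subgroup (GL (ZMod 7) F)), Q8 ω G → P F ω G

def JobS : Prop := JobEL.{u} → All8.{u} fun _ _ ω G => SS ω G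

def JobQM : Prop := All8.{u} fun _ _ ω G => SS ω G → Big G ∨ MM G

def JobQY : Prop := All8.{u} fun _ _ ω G => dp 7 ω 4 ∉ G → MM G → YP ω G

def JobQX : Prop := All8.{u} fun _ _ _ G =>
  ¬ In G (ke ![1, 1, 1] !![0, 1, 0; 0, 0, 1; 1, 0, 0]) → MM G → ∀ a m, In G (ke a m) → a = 0

def JobQK : Prop := (All8.{u} fun _ _ ω G => SS ω G) → JobQX.{u} → All8.{u} fun _ _ ω G =>
  ¬ Big G → MM G → YP ω G → KT G

def JobQH : Prop := All8.{u} fun _ _ ω G => YP ω G → KT G → UI G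

theorem q8_of (el : JobEL.{u}) (s : JobS.{u}) (m : JobQM.{u}) (y : JobQY.{u}) (x : JobQX.{u})
    (k : JobQK.{u}) (h : JobQH.{u}) : JobQ8.{u} := by
  rintro F _ _ r _ ω G hf hb rfl hc hr
  have q : Q8 ω G := ⟨hf, hb, hc, hr⟩
  have ss := s el F ω G q
  refine or_iff_not_imp_left.2 fun hn => ?_
  have mm := (m F ω G q ss).resolve_left hn
  have yp := y F ω G q (mt ss.q hn) mm
  exact h F ω G q yp (k (s el) x F ω G q hn mm yp)

end H53.C6
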