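import Cfsg.Agent.H48.QRSpec
import Cfsg.Agent.H98.JoinSylow

/-! The structure step of the qrc-lemma: reduction to one component, and the `SL(2,q)` case. -/

set_option autoImplicit false

namespace H53.QRV

open Subgroup Cfsg H98 H96 H11 Matrix MatrixGroups
open scoped commutatorElement

/-- a Sylow `2`-subgroup of order `2` avoids `O²`. -/
theorem inf_res_of_card_two {G : Type*} [Group G] [Finite G] {A L : Subgroup G} (h : IsSyl 2 A L)
    (hc : Nat.card A = 2) : A ⊓ res 2 L = ⊥ := by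
  haveI : Fact (Nat.Prime 2) := ⟨Nat.prime_two⟩
  obtain ⟨P, hP⟩ := h.exists_sylow
  have hc' : Nat.card (P : Subgroup L) = 2 := by
    rw [hP, Nat.card_congr (subgroupOfEquivOfLe h.le).toEquiv, hc]
  have hn : normalizer ((P : Subgroup L) : Set L) ≤ centralizer ((P : Subgroup L) : Set L) := by
    intro g hg x hx
    by_cases h1 : x = 1
    · simp [h1]
    obtain ⟨y, -, hy⟩ := (Nat.card_eq_two_iff' (1 : (P : Subgroup L))).1 hc'
    have e1 := hy ⟨x, hx⟩ (fun e => h1 (congrArg Subtype.val e))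
    have e2 := hy ⟨g * x * g⁻¹, (mem_normalizer_iff.1 hg x).1 hx⟩ (fun e => h1 (by
      have := congrArg Subtype.val e
      simpa using this))
    have e3 : g * x * g⁻¹ = x := congrArg Subtype.val (e2.trans e1.symm)
    rw [mul_inv_eq_iff_eq_mul] at e3
    exact e3.symm
  have h1 : res 2 (⊤ : Subgroup L) ≤ (MonoidHom.transferSylow P hn).ker :=
    (isPGroup_map_iff _ _).1 (P.isPGroup'.to_subgroup _)
  have h2 := MonoidHom.ker_transferSylow_disjoint P hn P P.isPGroup'
  refine eq_bot_iff.2 fun x hx => ?_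
  obtain ⟨hxA, y, hy, rfl⟩ := hx
  have h3 : y ∈ (MonoidHom.transferSylow P hn).ker ⊓ (P : Subgroup L) :=
    ⟨h1 (res_top (p := 2) (G := L) ▸ hy), hP ▸ hxA⟩
  rw [h2.eq_bot, mem_bot] at h3
  rw [h3]; exact one_mem _

variable {G V : Type*} [Group G] [AddCommGroup V] [DistribMulAction G V] [Finite G]
  [Finite V] {p : ℕ} [Fact p.Prime] {T M : Subgroup G} {𝓔 : Set (Subgroup G)}

omit [Finite G] [Finite V] [Fact p.Prime] in
theorem subN_comp (c : Comp p V T 𝓔) {E : Subgroup G} (hE : E ∈ 𝓔) : SubN E ⊤ := by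
  have h1 : SubN (sSup 𝓔) ⊤ := SubN.of_normal le_top (by
    haveI := c.normal; rw [normalizer_eq_top])
  refine SubNIn.step _ _ (le_sSup hE) (sSup_le fun E' hE' => ?_) h1
  by_cases e : E' = E
  · exact e ▸ le_normalizer
  · exact le_normalizer_of_le_centralizer (c.comm E' hE' E hE e).1

omit [Finite V] in
theorem reduce (hT : IsSyl p T ⊤) (c : Comp p V T 𝓔) {N : Subgroup G}
    (hN : ∀ E ∈ 𝓔, T ⊓ res p E ≤ N) : T ⊓ res p ⊤ ≤ N := by
  have key : ∀ S : Set (Subgroup G), S ⊆ 𝓔 → T ⊓ res p (sSup S) ≤ N := by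
    intro S
    induction S, Set.toFinite S using Set.Finite.induction_on with
    | empty => intro _; rw [sSup_empty, res_bot, inf_bot_eq]; exact bot_le
    | @insert E S hE _ ih =>
      intro hS
      have h1 := hS (Set.mem_insert E S)
      have ih' := ih ((Set.subset_insert E S).trans hS)
      have h2 : sSup S ≤ centralizer (E : Set G) := sSup_le fun E' hE' =>
        (c.comm E' (hS (Set.mem_insert_of_mem E hE')) E h1 fun e => hE (e ▸ hE')).1
      have h3 := le_normalizer_of_le_centralizer (le_centralizer_iff.1 h2)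
      rw [sSup_insert, sup_comm, res_sup_eq (le_normalizer_of_le_centralizer h2)
        (le_normalizer_res h3), inf_comm]
      refine (inf_sup_le_of_normal hT.isPGroup (hT.inf_subN (subN_comp c h1).res)
        ((res_le E).trans (le_normalizer_res h3))).trans (sup_le ?_ ?_)
      · rwa [inf_comm]
      · rw [inf_comm]; exact hN E h1
  haveI := c.normal
  rw [← c.top, sup_comm, res_sup_eq_right hT.isPGroup (by rw [normalizer_eq_top]; exact le_top)]
  exact key 𝓔 le_rfl

variable [FaithfulSMul G V]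

omit [Finite G] [FaithfulSMul G V] in
theorem normalizer_om_le (h : MP p V T M) (hne : om p V T ≠ ⊥) :
    normalizer (om p V T : Set G) ≤ M := by
  refine h.um.le_of_ne (le_normalizer_sSup fun A hA t ht =>
    ⟨hA.1.cj t, cj_le_of_le_of_mem hA.2 ht⟩) le_top fun e => hne ?_
  exact h.eq_bot (h.syl.isPGroup.to_le om_le) e.ge

theorem blk_case (h : MP 2 V T M) (c : Comp 2 V T 𝓔) {E A : Subgroup G} (hE : E ∈ 𝓔) (hA : A ≤ T)
    (b : Blk V E A) : T ⊓ res 2 E ≤ ⁅M ⊓ res 2 ⊤, om 2 V T⁆ := by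
  haveI : Fact (Nat.Prime 2) := ⟨Nat.prime_two⟩
  have hS := b.isSyl h.h0
  have hTE : T ⊓ E = A := hS.eq_of_le h.syl.isPGroup.to_inf_left (le_inf hA b.le) inf_le_right
  have hAJ : A ≤ om 2 V T := h.le_om_of_off ⟨b.quad.ea h.h0, b.index_fxA.le⟩ hA
  have hle : T ⊓ res 2 E ≤ A ⊓ res 2 E :=
    le_inf (hTE ▸ inf_le_inf_left T (res_le E)) inf_le_right
  rcases b.two_le_card.eq_or_lt with hq | hq
  · rw [inf_res_of_card_two hS hq.symm] at hle
    exact hle.trans bot_le
  have hne : om 2 V T ≠ ⊥ := fun e => by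
    rw [show A = ⊥ from eq_bot_iff.2 (e ▸ hAJ), card_bot] at hq
    omega
  have hM : ∀ k ∈ E, k ∈ normalizer (A : Set G) → k ∈ M := fun k hk hkA => by
    refine normalizer_om_le h hne (mem_normalizer_of_cj_le (cj_le_iff.2 (sSup_le fun B hB => ?_)))
    rw [← cj_le_iff]
    obtain ⟨E', hE', hB'⟩ := c.mo B hB.2 hB.1
    by_cases e : E = E'
    · subst e
      exact ((cj_mono k (hTE ▸ le_inf hB.2 hB')).trans (cj_eq_self hkA).le).trans hAJ
    · rw [conj_eq_of_centralizer (centralizer_anti hB' ((c.comm E hE E' hE' e).1 hk))]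
      exact le_om hB.1 hB.2
  refine hle.trans (inf_le_left.trans ?_)
  obtain ⟨F, _, _, ⟨m⟩⟩ := b
  haveI := m.charP h.h0
  rw [m.card_eq] at hq
  have : Nontrivial Fˣ := Finite.one_lt_card_iff_nontrivial.1 (by rw [Nat.card_units]; omega)
  obtain ⟨x, hx⟩ := _root_.exists_ne (1 : Fˣ)
  have e2 : dMat (1 : Fˣ) = 1 := by ext i j; fin_cases i <;> fin_cases j <;> simp [dMat]
  have hd : ∀ n : ℕ, dMat x ^ n = dMat (x ^ n) := fun n => by
    induction n with
    | zero => rw [pow_zero, pow_zero, e2]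
    | succ n ih =>
      rw [pow_succ, ih]
      ext i j; fin_cases i <;> fin_cases j <;>
        simp [dMat, Matrix.mul_apply, Fin.sum_univ_two, pow_succ, mul_comm]
  have hk1 : m.el (dMat x) ^ (Nat.card F - 1) = 1 := by
    have e1 : x ^ (Nat.card F - 1) = 1 := by rw [← Nat.card_units]; exact pow_card_eq_one'
    have e3 : ∀ n : ℕ, m.el (dMat x) ^ n = m.el (dMat x ^ n) := fun n => by simp [Model.el]
    rw [e3, hd, e1, e2, m.el_one]
  have hodd : (Nat.card F - 1).Coprime 2 := by
    obtain ⟨n, -, hn⟩ := FiniteField.card F 2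
    rw [Nat.card_eq_fintype_card, hn, Nat.coprime_two_right]
    exact Nat.Even.sub_odd Nat.one_le_two_pow ((Nat.even_pow' n.ne_zero).2 even_two) odd_one
  have hk : m.el (dMat x) ∈ M ⊓ res 2 ⊤ :=
    ⟨hM _ (m.el_mem _) (m.el_mem_normalizer (by simp [dMat])),
      mem_res_of_coprime trivial (hodd.coprime_dvd_left (orderOf_dvd_of_pow_eq_one hk1))⟩
  have hx2 : (x : F) ^ 2 - 1 ≠ 0 := fun e => hx (Units.ext (by
    have e1 : ((x : F) - 1) ^ 2 = 0 := by
      have e2 : (2 : F) = 0 := CharP.cast_eq_zero F 2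
      linear_combination e - ((x : F) - 1) * e2
    simpa [sub_eq_zero] using e1))
  intro a ha
  obtain ⟨t, rfl⟩ := m.exists_u ha
  have := commutator_mem_commutator hk (hAJ (m.el_u (t / ((x : F) ^ 2 - 1))))
  rw [commutatorElement_def, ← m.el_inv, ← m.el_inv, ← m.el_mul, ← m.el_mul, ← m.el_mul,
    conj_uMat_of_10 (by simp [dMat]), ← uMat_neg, ← uMat_add] at this
  convert this using 3
  simp only [dMat, slm_00]
  field_simp
  ring

end H53.QRV
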