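import Cfsg.Agent.H53.SGSpec
import Cfsg.Agent.H53.CKAsm

/-! Assembly of the tower SG, 1: the matrices of the group. -/

set_option autoImplicit false

namespace H53.SG

open Finsupp MvPolynomial Module
open scoped Classical

universe u v

/-- all jobs -/
structure Jobs : Prop where
  m0 : JobM0.{v}
  op : JobOp.{v}
  red : JobRed.{v}
  u : JobU.{v}
  r1 : JobR.{v} (fun p c D => R1 p c D)
  r2 : JobR.{v} (fun p c D => R2 p c D)
  num : JobNum
  c1 : JobC1.{v}
  c2 : JobC2.{v}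
  e1 : JobE1.{v}
  exc : JobExc.{v}

variable {F : Type u} [Field F] {K : Type v} [Field K] [Algebra F K]

/-- The setting. -/
structure Ctx (H : Subgroup (K ≃ₗ[F] K)) (p e n g μ : ℕ) (θ : K) : Prop where
  hp : p.Prime
  hq : Nat.card F = p ^ e
  hn : finrank F K = n
  npr : n.Prime
  n5 : 5 ≤ n
  μg : μ * g = p ^ e - 1
  g1 : (g = 1 ∧ n.Coprime (p ^ e - 1)) ∨ g = n
  sc : CK.Sc H
  ord : orderOf θ = μ * ∑ i ∈ Finset.range n, (p ^ e) ^ i
  mulθ : ∃ k ∈ H, ∀ x, k x = θ * x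
  mulC : ∀ k ∈ H, ∀ t, (∀ x, k x = t * x) → t ^ (μ * ∑ i ∈ Finset.range n, (p ^ e) ^ i) = 1
  frob : ∃ k ∈ H, ∃ a : K, ∀ x, k x = a * x ^ p ^ e
  nonmono : ∃ k ∈ H, ∀ (a : K) (i : ℕ), ¬ ∀ x, k x = a * x ^ (p ^ e) ^ i

theorem mem_range_of_pow [Finite F] {c : K} (h : c ^ Nat.card F = c) :
    ∃ a : F, algebraMap F K a = c := by
  have := Fintype.ofFinite F
  rw [Nat.card_eq_fintype_card] at h
  have h1 := Fintype.one_lt_card (α := F)
  have h0 := FiniteField.X_pow_card_sub_X_ne_zero K h1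
  have h2 : (Finset.univ.image (algebraMap F K)) =
      (Polynomial.X ^ Fintype.card F - Polynomial.X : Polynomial K).roots.toFinset := by
    refine Finset.eq_of_subset_of_card_le (fun x hx => ?_) ?_
    · obtain ⟨a, -, rfl⟩ := Finset.mem_image.1 hx
      simp [h0, ← map_pow, FiniteField.pow_card]
    · rw [Finset.card_image_of_injective _ (algebraMap F K).injective, Finset.card_univ]
      exact (Multiset.toFinset_card_le _).trans ((Polynomial.card_roots' _).trans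
        (FiniteField.X_pow_card_sub_X_natDegree_eq K h1).le)
  have : c ∈ Finset.univ.image (algebraMap F K) := by simp [h2, h0, h]
  simpa using this

variable {p e n : ℕ} [NeZero (e * n)]

section pw

variable [Fintype K]

omit [NeZero (e * n)] in
theorem pw_cast (hK : Fintype.card K = p ^ (e * n)) (x : K) (k : ℕ) :
    x ^ p ^ (k : ZMod (e * n)).val = x ^ p ^ k := by
  rw [ZMod.val_natCast]
  conv_rhs => rw [← Nat.div_add_mod k (e * n), pow_add, pow_mul, pow_mul p, ← hK,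
    FiniteField.pow_card_pow]

theorem pw_add (hK : Fintype.card K = p ^ (e * n)) (x : K) (t : ZMod (e * n)) (k : ℕ) :
    x ^ p ^ (t + k).val = (x ^ p ^ t.val) ^ p ^ k := by
  rw [← pow_mul, ← pow_add, ← pw_cast hK x (t.val + k), Nat.cast_add, ZMod.natCast_zmod_val]

end pw

theorem cl_eq_zero {t : ZMod (e * n)} (h : cl t = 0) : ∃ i, i < n ∧ t.val = e * i := by
  rw [← ZMod.natCast_zmod_val t, cl_natCast, ZMod.natCast_eq_zero_iff] at h
  obtain ⟨i, hi⟩ := h
  exact ⟨i, lt_of_mul_lt_mul_left (hi ▸ t.val_lt) e.zero_le, hi⟩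

/-- `A` is the matrix of `k` -/
def Rep (p : ℕ) (k : K ≃ₗ[F] K) (A : Matrix (ZMod (e * n)) (ZMod (e * n)) K) : Prop :=
  (∀ t' t, A t' t ≠ 0 → cl t' = cl t) ∧ ∀ x t, k x ^ p ^ t.val = ∑ t', A t' t * x ^ p ^ t'.val

theorem Rep.ev {k : K ≃ₗ[F] K} {A : Matrix (ZMod (e * n)) (ZMod (e * n)) K} (h : Rep p k A)
    (Φ : MvPolynomial (Vr e n) K) (x y : K) : ev p (sg A Φ) x y = ev p Φ (k x) (k y) := by
  induction Φ using MvPolynomial.induction_on with
  | C a => simp [SG.ev, sg]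
  | add G G' h1 h2 => simpa [SG.ev, map_add] using congrArg₂ (· + ·) h1 h2
  | mul_X G v h1 =>
    simp only [SG.ev, map_mul] at h1 ⊢
    rw [h1]
    obtain ⟨b, t⟩ := v
    cases b <;> simp [sg, h.2]

variable [Finite F] [Fintype K] [CharP K p] (J : Jobs.{v}) {H : Subgroup (K ≃ₗ[F] K)} {g μ : ℕ}
  {θ : K} (C : Ctx H p e n g μ θ)

namespace Ctx

include C

omit [NeZero (e * n)] [CharP K p] [Finite F] in
theorem card : Fintype.card K = p ^ (e * n) := by
  have : Module.Finite F K := Module.Finite.of_finite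
  rw [← Nat.card_eq_fintype_card, Module.natCard_eq_pow_finrank (K := F), C.hq, C.hn, pow_mul]

include J

omit [Finite F] in
theorem indep {a b : ZMod (e * n) → K}
    (h : ∀ x : K, ∑ t, a t * x ^ p ^ t.val = ∑ t, b t * x ^ p ^ t.val) : a = b :=
  sub_eq_zero.1 <| (J.red.2 p e n K C.hp C.card).2.2.2 (a - b) fun x => by
    simp [sub_mul, h]

theorem exists_rep (k : K ≃ₗ[F] K) : ∃ A : Matrix (ZMod (e * n)) (ZMod (e * n)) K, Rep p k A :=
  (J.red.2 p e n K C.hp C.card).2.2.1 k.toLinearMap.toAddMonoidHom fun c x hc => by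
    obtain ⟨a, rfl⟩ := mem_range_of_pow (F := F) (C.hq ▸ hc)
    simp [← Algebra.smul_def]

theorem rep_mul {k : K ≃ₗ[F] K} {A B : Matrix (ZMod (e * n)) (ZMod (e * n)) K} (h : Rep p k A)
    (h' : Rep p k⁻¹ B) : B * A = 1 := by
  ext t' t
  refine congrFun (C.indep J (a := fun t' => (B * A) t' t) (b := fun t' => (1 : Matrix _ _ K) t' t)
    fun x => ?_) t'
  have := h.2 (k⁻¹ x) t
  rw [← LinearEquiv.mul_apply, mul_inv_cancel] at this
  simp only [Matrix.one_apply, ite_mul, one_mul, zero_mul, Finset.sum_ite_eq', Finset.mem_univ,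
    if_true, Matrix.mul_apply, Finset.sum_mul]
  rw [show x ^ p ^ t.val = _ from this, Finset.sum_comm]
  refine Finset.sum_congr rfl fun s _ => ?_
  rw [h'.2, Finset.mul_sum]
  exact Finset.sum_congr rfl fun _ _ => by ring

omit J [NeZero (e * n)] [Finite F] [Fintype K] [CharP K p] in
theorem θ0 : θ ≠ 0 := by
  obtain ⟨k, -, hk⟩ := C.mulθ
  exact fun h => one_ne_zero (k.injective (by rw [hk, h, zero_mul, map_zero]))

omit C J [Finite F] [Fintype K] [CharP K p] in
/-- a map with one nonzero coefficient -/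
theorem mono {k : K ≃ₗ[F] K} {A : Matrix (ZMod (e * n)) (ZMod (e * n)) K} (h : Rep p k A)
    (h1 : ∀ t₁ t₂, A t₁ 0 ≠ 0 → A t₂ 0 ≠ 0 → t₁ = t₂) :
    ∃ t i, A t 0 ≠ 0 ∧ i < n ∧ t.val = e * i ∧ ∀ x, k x = A t 0 * x ^ (p ^ e) ^ i := by
  have h2 : ∀ x, k x = ∑ t', A t' 0 * x ^ p ^ t'.val := fun x => by simpa using h.2 x 0
  have : ∃ t, A t 0 ≠ 0 := by
    by_contra h3
    push Not at h3
    exact one_ne_zero (k.injective (by rw [h2, map_zero]; simp [h3]))
  obtain ⟨t, ht⟩ := this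
  obtain ⟨i, hi, h3⟩ := cl_eq_zero ((h.1 t 0 ht).trans (map_zero _))
  refine ⟨t, i, ht, hi, h3, fun x => ?_⟩
  rw [h2, Finset.sum_eq_single t (fun s _ hs => ?_) (by simp), h3, pow_mul]
  rw [not_not.1 fun h4 => hs (h1 s t h4 ht), zero_mul]

theorem dat {r : ℕ} (hr : (g = 1 ∧ r = 1) ∨ (g = n ∧ r = 3 ∧ 6 ≤ μ * (n - 1))) :
    Dat p r {A : Matrix (ZMod (e * n)) (ZMod (e * n)) K | ∃ k ∈ H, Rep p k A} θ where
  inv := by
    rintro A ⟨k, hk, h⟩
    obtain ⟨B, hB⟩ := C.exists_rep J k⁻¹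
    exact ⟨B, ⟨_, H.inv_mem hk, hB⟩, C.rep_mul J hB (by rwa [inv_inv]), C.rep_mul J h hB⟩
  cls := fun A ⟨_, _, h⟩ => h.1
  frob := by
    rintro A ⟨k, -, h⟩ t' t
    have := Fact.mk C.hp
    refine congrFun (C.indep J (a := fun s => A (s + 1) (t + 1)) (b := fun s => A s t ^ p)
      fun x => ?_) t'
    obtain ⟨y, rfl⟩ := Finite.surjective_of_injective (frobenius K p).injective x
    have h2 := pw_add C.card (k y) t 1
    rw [Nat.cast_one, pow_one, h.2 y t, sum_pow_char, h.2,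
      ← Equiv.sum_comp (Equiv.addRight 1)] at h2
    have h3 : ∀ s : ZMod (e * n), frobenius K p y ^ p ^ s.val = y ^ p ^ (s + 1).val := fun s => by
      have := pw_add C.card y s 1
      rw [Nat.cast_one, pow_one] at this
      rw [this, frobenius_def, ← pow_mul, ← pow_mul, mul_comm]
    simp only [h3]
    refine h2.trans (Finset.sum_congr rfl fun s _ => ?_)
    have := pw_add C.card y s 1
    rw [Nat.cast_one, pow_one] at this
    rw [mul_pow, this]
  diag := by
    obtain ⟨k, hk, h⟩ := C.mulθ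
    refine ⟨k, hk, fun t' t h1 => ?_, fun x t => ?_⟩
    · rw [not_not.1 fun h2 => h1 (Matrix.diagonal_apply_ne _ h2)]
    · simp [h, mul_pow, Matrix.diagonal_apply]
  shift := by
    obtain ⟨k, hk, a, h⟩ := C.frob
    have ha : a ≠ 0 := fun h0 => one_ne_zero (k.injective (by rw [h, h0, zero_mul, map_zero]))
    refine ⟨fun t' t => if t' = t + e then a ^ p ^ t.val else 0, ⟨k, hk, fun t' t h1 => ?_,
      fun x t => ?_⟩, fun t' t => by simp [ha]⟩
    · rw [not_not.1 fun h2 => h1 (if_neg h2), cl_add, cl_natCast, ZMod.natCast_self, add_zero]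
    · simp only [h, mul_pow, ite_mul, zero_mul, Finset.sum_ite_eq', Finset.mem_univ, if_true,
        pw_add C.card]
      rw [← pow_mul, ← pow_mul, mul_comm (p ^ e)]
  nonmono := by
    obtain ⟨k, hk, h⟩ := C.nonmono
    obtain ⟨A, hA⟩ := C.exists_rep J k
    refine ⟨A, ⟨k, hk, hA⟩, 0, ?_⟩
    by_contra h1
    obtain ⟨t, i, -, -, -, h2⟩ := mono hA fun t₁ t₂ h2 h3 =>
      not_not.1 fun h4 => h1 ⟨t₁, t₂, h4, h2, h3⟩
    exact h _ i h2
  sep := fun s α β hα hβ h1 h2 h3 => by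
    refine (J.num p e n g μ C.hp C.μg).2 r (by have := C.n5; omega) hr s α β hα hβ h1 h2 ?_
    rw [← C.ord, ← Units.val_mk0 C.θ0, orderOf_units, ← pow_eq_pow_iff_modEq]
    exact Units.ext (by simpa using h3)

end Ctx

end H53.SG
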