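import Cfsg.Agent.H53.SGA

/-! Assembly of the tower SG, 2: the polynomials of invariant functions. -/

set_option autoImplicit false
set_option linter.unusedSectionVars false

namespace H53.SG

open Finsupp MvPolynomial Module
open scoped Classical

universe u v

variable {F : Type u} [Field F] {K : Type v} [Field K] [Algebra F K]

/-- invariant functions -/
structure Inv (H : Subgroup (K ≃ₗ[F] K)) (f : K → K → K) : Prop where
  inv : ∀ k ∈ H, ∀ c : F, c ≠ 0 → ∀ x y, f (k x) (c • k y) = f x y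
  x0 : ∀ y, f 0 y = 0
  y0 : ∀ x, f x 0 = 0

variable {p e n : ℕ} [NeZero (e * n)]

/-- the monomial `x ^ (Q - 1) y ^ (Q - 1)` -/
noncomputable def Ms (p e n : ℕ) [NeZero (e * n)] : Mon e n := equivFunOnFinite.symm fun _ => p - 1

theorem Ms_apply (v : Vr e n) : Ms p e n v = p - 1 := rfl

theorem sum_zmod {N : ℕ} [NeZero N] {M : Type*} [AddCommMonoid M] (f : ℕ → M) :
    ∑ t : ZMod N, f t.val = ∑ i ∈ Finset.range N, f i :=
  Finset.sum_nbij ZMod.val (fun t _ => by simp [t.val_lt]) (ZMod.val_injective N).injOn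
    (fun i hi => ⟨i, by simp, ZMod.val_cast_of_lt (by simpa using hi)⟩) fun _ _ => rfl

theorem val_const (hp : p.Prime) {η : ZMod (e * n) → ℕ} (h : ∀ t, η t = p - 1) :
    val p η = p ^ (e * n) - 1 := by
  simp only [val, h]
  rw [← Finset.mul_sum, sum_zmod (fun i => p ^ i), mul_comm, geom_sum_mul_of_one_le hp.one_le]

theorem val_eta (m : Mon e n) : val p (eta m) = vc p m false + vc p m true := by
  simp [val, vc, eta, add_mul, Finset.sum_add_distrib]

theorem dg_eq (m : Mon e n) : dg m = ∑ t, eta m t := by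
  simp [dg, eta, Fintype.sum_prod_type, Finset.sum_add_distrib, add_comm]

theorem ev_monomial (m : Mon e n) (c x y : K) :
    ev p (monomial m c) x y = c * (x ^ vc p m false * y ^ vc p m true) := by
  rw [ev, eval_monomial, Finsupp.prod_fintype _ _ (by simp), Fintype.prod_prod_type]
  simp [vc, val, ← Finset.prod_pow_eq_pow_sum, ← pow_mul, mul_comm]

theorem ev_sum {ι : Type*} (s : Finset ι) (G : ι → MvPolynomial (Vr e n) K) (x y : K) :
    ev p (∑ i ∈ s, G i) x y = ∑ i ∈ s, ev p (G i) x y := map_sum _ _ _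

theorem exists_of_vc {m : Mon e n} {k : Bool} (h : vc p m k ≠ 0) : ∃ t, m (k, t) ≠ 0 := by
  by_contra h1
  push Not at h1
  exact h (by simp [vc, val, h1])

theorem eq_Ms {m : Mon e n} (hm : Red p m) (h : ∀ t, eta m t = 2 * (p - 1)) : m = Ms p e n := by
  ext ⟨k, t⟩
  have := h t
  have := hm (false, t)
  have := hm (true, t)
  rw [Ms_apply]
  cases k <;> simp only [eta] at * <;> omega

theorem eta_le {m : Mon e n} (hm : Red p m) (t : ZMod (e * n)) : eta m t ≤ 2 * (p - 1) := by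
  have := hm (false, t)
  have := hm (true, t)
  simp only [eta]
  omega

theorem eta_of_car {m : Mon e n} (hm : Red p m) (h0 : m ≠ Ms p e n) {δ w : ZMod (e * n) → ℕ}
    (h : Car p (eta m) δ w) (hδ : ∀ t, δ t = p - 1) (t : ZMod (e * n)) : eta m t = p - 1 := by
  have h1 : ∀ t, w (t + 1) = 1 → w t = 1 ∧ eta m t = 2 * (p - 1) := fun t ht => by
    have := h.eq t
    have := h.w1 t
    have := eta_le hm t
    have := h.lt t
    rw [ht, hδ] at *
    omega
  have h2 : ∀ t, w t = 0 := fun t => by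
    by_contra h3
    have h4 : ∀ k : ℕ, w (t - k) = 1 := fun k => by
      induction k with
      | zero => have := h.w1 t; simp; omega
      | succ k ih => exact (h1 _ ((congrArg w (by push_cast; ring)).trans ih)).1
    refine h0 (eq_Ms hm fun s => (h1 s ?_).2)
    simpa using h4 (t - (s + 1)).val
  simpa [h2, hδ] using h.eq t

/-- `Φ` is the reduced polynomial of an invariant function -/
structure Rp (p : ℕ) (H : Subgroup (K ≃ₗ[F] K)) (Φ : MvPolynomial (Vr e n) K) : Prop where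
  red : ∀ m, coeff m Φ ≠ 0 → Red p m
  inv : Inv H (ev p Φ)

variable [Finite F] [Fintype K] [CharP K p] (J : Jobs.{v}) {H : Subgroup (K ≃ₗ[F] K)} {g μ : ℕ}
  {θ : K} (C : Ctx H p e n g μ θ) {Φ : MvPolynomial (Vr e n) K}

namespace Ctx

include C J

theorem scale (R : Rp p H Φ) {α β γ : K} (h : ∀ x y, ev p Φ (α * x) (β * y) = γ * ev p Φ x y)
    {m : Mon e n} (hm : coeff m Φ ≠ 0) : α ^ vc p m false * β ^ vc p m true = γ :=
  (J.red.2 p e n K C.hp C.card).2.1 Φ R.red α β γ h m hm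

theorem x0 (R : Rp p H Φ) {m : Mon e n} (hm : coeff m Φ ≠ 0) : ∃ t, m (false, t) ≠ 0 :=
  exists_of_vc (p := p) fun h => by
    simpa [h] using C.scale J R (α := 0) (β := 1) (γ := 0) (by simp [R.inv.x0]) hm

theorem y0 (R : Rp p H Φ) {m : Mon e n} (hm : coeff m Φ ≠ 0) : ∃ t, m (true, t) ≠ 0 :=
  exists_of_vc (p := p) fun h => by
    simpa [h] using C.scale J R (α := 1) (β := 0) (γ := 0) (by simp [R.inv.y0]) hm

theorem eta0 (R : Rp p H Φ) {m : Mon e n} (hm : coeff m Φ ≠ 0) : ∃ t, eta m t ≠ 0 :=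
  (C.x0 J R hm).imp fun t ht => by simp [eta, ht]

theorem dvd_x (R : Rp p H Φ) {m : Mon e n} (hm : coeff m Φ ≠ 0) : p ^ e - 1 ∣ vc p m false := by
  obtain ⟨a, ha⟩ := IsCyclic.exists_ofOrder_eq_natCard (α := Fˣ)
  obtain ⟨k, hk, h⟩ := C.sc a a.ne_zero
  have := C.scale J R (α := algebraMap F K a) (β := 1) (γ := 1) (fun x y => by
    simpa [h, Algebra.smul_def, ← mul_assoc, ← map_mul] using
      R.inv.inv k hk (a⁻¹ : Fˣ) (Units.ne_zero _) x y) hm
  rw [one_pow, mul_one, ← map_pow, map_eq_one_iff _ (algebraMap F K).injective,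
    ← Units.val_pow_eq_pow_val, Units.val_eq_one] at this
  rw [← C.hq, ← Nat.card_units, ← ha]
  exact orderOf_dvd_of_pow_eq_one this

theorem car (R : Rp p H Φ) {m : Mon e n} (hm : coeff m Φ ≠ 0) :
    ∃ δ w, Car p (eta m) δ w ∧ (g = 1 → ∀ t, δ t = p - 1) := by
  refine (J.num p e n g μ C.hp C.μg).1 _ (eta_le (R.red m hm)) (C.eta0 J R hm) ?_
  obtain ⟨k, hk, h⟩ := C.mulθ
  rw [← C.ord, val_eta]
  refine orderOf_dvd_of_pow_eq_one ?_
  rw [pow_add]
  exact C.scale J R (fun x y => by simpa [h] using R.inv.inv k hk 1 one_ne_zero x y) hm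

theorem sup (R : Rp p H Φ) {D : ℕ} (hD : ∀ m, coeff m Φ ≠ 0 → dg m ≤ D) :
    Sup p (fun m => coeff m Φ) D :=
  ⟨R.red, hD, fun _ hm => (C.car J R hm).imp fun _ h => h.imp fun _ h => h.1⟩

omit J in
theorem q_facts : 1 ≤ e ∧ 1 ≤ μ ∧ 2 ≤ p ^ e := by
  have h1 : e ≠ 0 := fun h => NeZero.ne (e * n) (by simp [h])
  have h2 := Nat.one_lt_pow h1 C.hp.one_lt
  have := C.μg
  exact ⟨by omega, Nat.pos_of_ne_zero fun h => by simp [h] at this; omega, h2⟩

theorem mode (R : Rp p H Φ) (h0 : coeff (Ms p e n) Φ = 0) : ∃ r,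
    ((g = 1 ∧ r = 1) ∨ (g = n ∧ r = 3 ∧ 6 ≤ μ * (n - 1))) ∧ Mode p r fun m => coeff m Φ := by
  obtain ⟨he, hμ, -⟩ := C.q_facts
  have n5 := C.n5
  have h1 := C.μg
  rcases C.g1 with ⟨hg, -⟩ | hg
  · refine ⟨1, .inl ⟨hg, rfl⟩, .inl ⟨rfl, fun m hm => ?_⟩⟩
    obtain ⟨δ, w, h, h'⟩ := C.car J R hm
    exact eta_of_car (R.red m hm) (fun h2 => hm (h2 ▸ h0)) h (h' hg)
  · subst hg
    refine ⟨3, .inr ⟨rfl, rfl, ?_⟩, .inr ⟨rfl, ?_⟩⟩
    · by_contra h2
      have h3 : μ = 1 := by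
        by_contra h3
        exact h2 (le_trans (by norm_num) (Nat.mul_le_mul (show 2 ≤ μ by omega)
          (show 4 ≤ g - 1 by omega)))
      subst h3
      have h4 : g = 5 ∨ g = 6 := by omega
      rcases h4 with rfl | rfl
      · have h5 : p ^ e = 2 * 3 := by omega
        have h6 := (Nat.prime_dvd_prime_iff_eq Nat.prime_two C.hp).1
          (Nat.prime_two.dvd_of_dvd_pow (h5 ▸ dvd_mul_right 2 3))
        have h7 := (Nat.prime_dvd_prime_iff_eq Nat.prime_three C.hp).1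
          (Nat.prime_three.dvd_of_dvd_pow (h5 ▸ dvd_mul_left 3 2))
        omega
      · exact absurd C.npr (by norm_num)
    · by_contra h2
      have h3 : e = 1 := by omega
      have := Nat.mul_le_mul hμ n5
      rw [h3, pow_one] at h1
      omega

theorem c2 (R : Rp p H Φ) (h0 : coeff (Ms p e n) Φ = 0) {D : ℕ}
    (hD : ∀ m, coeff m Φ ≠ 0 → dg m ≤ D) :
    (∀ m, coeff m Φ ≠ 0 → dg m = D → J0 p m) ∧ (D = e * n * (p - 1) → ∀ m m', J0 p m → J0 p m' →
      (2 ≤ e ∨ ∑ t, m (false, t) = ∑ t, m' (false, t)) → coeff m Φ = coeff m' Φ) := by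
  obtain ⟨r, hr, hM⟩ := C.mode J R h0
  have hS := C.sup J R hD
  have n3 : 3 ≤ n := by have := C.n5; omega
  have hi : ∀ A ∈ {A : Matrix (ZMod (e * n)) (ZMod (e * n)) K | ∃ k ∈ H, Rep p k A}, ∀ x y,
      ev p (sg A Φ) x y = ev p Φ x y := fun A ⟨k, hk, h⟩ x y => by
    simpa [h.ev] using R.inv.inv k hk 1 one_ne_zero x y
  have h1 := J.r1 J.m0 J.op J.red.1 J.u p e n r K _ θ Φ D C.hp C.npr n3 C.card (C.dat J hr) hi hS hM
  have h2 := J.r2 J.m0 J.op J.red.1 J.u p e n r K _ θ Φ D C.hp C.npr n3 C.card (C.dat J hr) hi hS hM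
  have h3 := J.c2 p e n K _ D C.hp C.n5 hS (J.c1 p e n K _ D C.hp C.npr n3 hS h1) h2
  refine ⟨fun m hm hd => ⟨h3.1 m hm hd (C.eta0 J R hm) ?_, C.x0 J R hm, C.y0 J R hm,
    C.dvd_x J R hm⟩, h3.2⟩
  by_contra h4
  push Not at h4
  exact hm (eq_Ms (R.red m hm) h4 ▸ h0)

theorem top (R : Rp p H Φ) (h0 : coeff (Ms p e n) Φ = 0) (h : Φ ≠ 0) :
    ∃ m, coeff m Φ ≠ 0 ∧ J0 p m ∧ ∀ m', coeff m' Φ ≠ 0 → dg m' ≤ dg m := by
  obtain ⟨m, hm, h1⟩ := Φ.support.exists_max_image dg (support_nonempty.2 h)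
  simp only [MvPolynomial.mem_support_iff] at hm h1
  exact ⟨m, hm, (C.c2 J R h0 h1).1 m hm rfl, h1⟩

theorem coeff_eq (R : Rp p H Φ) (h0 : coeff (Ms p e n) Φ = 0) {m m' : Mon e n} (hm : J0 p m)
    (hm' : J0 p m') (h : 2 ≤ e ∨ ∑ t, m (false, t) = ∑ t, m' (false, t)) :
    coeff m Φ = coeff m' Φ := by
  by_cases h1 : Φ = 0
  · simp [h1]
  obtain ⟨m₀, -, h2, h3⟩ := C.top J R h0 h1
  exact (C.c2 J R h0 h3).2 (by simp [dg_eq, h2.eta]) m m' hm hm' h

end Ctx

/-- the orbit relation -/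
def Rl (H : Subgroup (K ≃ₗ[F] K)) (s s' : K × K) : Prop :=
  ∃ k ∈ H, ∃ c : F, c ≠ 0 ∧ s'.1 = k s.1 ∧ s'.2 = c • k s.2

theorem Rl.inv {H : Subgroup (K ≃ₗ[F] K)} {s : K × K} (h1 : s.1 ≠ 0) (h2 : s.2 ≠ 0) :
    Inv H fun x y => if Rl H s (x, y) then 1 else 0 where
  inv k hk c hc x y := by
    refine if_congr ⟨fun ⟨k', hk', c', hc', h, h'⟩ => ⟨k⁻¹ * k', H.mul_mem (H.inv_mem hk) hk',
      c⁻¹ * c', by simp [hc, hc'], ?_, ?_⟩, fun ⟨k', hk', c', hc', h, h'⟩ =>
      ⟨k * k', H.mul_mem hk hk', c * c', by simp [hc, hc'], ?_, ?_⟩⟩ rfl rfl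
    · simp only at h
      simp [← h]
    · simp only at h'
      rw [mul_smul, LinearEquiv.mul_apply, ← map_smul k⁻¹, ← h']
      simp [hc]
    · simp only at h
      simp [h]
    · simp only at h'
      simp [h', mul_smul]
  x0 y := if_neg fun ⟨k, _, _, _, h, _⟩ => h1 (by simpa using h.symm)
  y0 x := if_neg fun ⟨k, _, c, hc, _, h⟩ => h2 (by simpa [hc] using h.symm)

include C J in
/-- the rank is at most the number of monomials whose coefficients determine `Φ` -/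
theorem Ctx.rank {ι κ : Type} [Fintype ι] [Fintype κ] (ms : ι → Mon e n)
    (h : ∀ Φ : MvPolynomial (Vr e n) K, Rp p H Φ → (∀ i, coeff (ms i) Φ = 0) → Φ = 0)
    (hc : Fintype.card ι < Fintype.card κ) (s : κ → K × K) (h1 : ∀ j, (s j).1 ≠ 0)
    (h2 : ∀ j, (s j).2 ≠ 0) : ∃ i j, i ≠ j ∧ Rl H (s i) (s j) := by
  choose Φ hΦ hf using fun j => (J.red.2 p e n K C.hp C.card).1
    fun x y => if Rl H (s j) (x, y) then 1 else 0
  have : ¬ LinearIndependent K fun j i => coeff (ms i) (Φ j) := fun h3 => by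
    simpa [hc.not_ge] using h3.fintype_card_le_finrank
  obtain ⟨a, ha, j, hj⟩ := Fintype.not_linearIndependent_iff.1 this
  have h3 : ∀ x y, ev p (∑ j, a j • Φ j) x y =
      ∑ j, a j * if Rl H (s j) (x, y) then 1 else 0 := fun x y => by
    simp only [ev_sum, ← hf]
    simp [ev]
  have h4 := h (∑ j, a j • Φ j) ⟨fun m hm => ?_, ⟨fun k hk c hc x y => ?_, fun y => ?_,
    fun x => ?_⟩⟩ fun i => by simpa [coeff_sum] using congrFun ha i
  · by_contra h5
    push Not at h5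
    have := h3 (s j).1 (s j).2
    rw [h4, Finset.sum_eq_single j (fun i _ hi => by simp [h5 i j hi]) (by simp),
      if_pos ⟨1, H.one_mem, 1, one_ne_zero, by simp, by simp⟩] at this
    exact hj (by simpa [ev] using this.symm)
  · rw [coeff_sum] at hm
    obtain ⟨i, -, hi⟩ := Finset.exists_ne_zero_of_sum_ne_zero hm
    exact hΦ i m fun h5 => hi (by simp [h5])
  · simp only [h3, (Rl.inv (h1 _) (h2 _)).inv k hk c hc]
  · simp only [h3, (Rl.inv (h1 _) (h2 _)).x0, mul_zero, Finset.sum_const_zero]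
  · simp only [h3, (Rl.inv (h1 _) (h2 _)).y0, mul_zero, Finset.sum_const_zero]

include C J in
/-- constant coefficients give 2-transitivity -/
theorem Ctx.t2 (h : ∀ Φ : MvPolynomial (Vr e n) K, Rp p H Φ → coeff (Ms p e n) Φ = 0 →
    ∀ m m', J0 p m → J0 p m' → coeff m Φ = coeff m' Φ) : CK.T2 H := fun x y x' y' h1 h2 => by
  have h3 : ∀ {x y : K}, CK.Ind F x y → ¬ Rl H (1, 1) (x, y) ∧ ¬ Rl H (x, y) (1, 1) :=
    fun {x y} h => ⟨fun ⟨k, _, c, _, a, b⟩ => h.2 (by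
      simp only at a b; rw [b, ← a]; exact Submodule.smul_mem _ _ (Submodule.mem_span_singleton_self _)),
      fun ⟨k, _, c, hc, a, b⟩ => h.2 (by
        simp only at a b
        rw [a, ← map_smul, k.injective.eq_iff] at b
        exact Submodule.mem_span_singleton.2 ⟨c⁻¹, by simp [b, hc]⟩)⟩
  have h4 : ∀ {x y : K}, CK.Ind F x y → y ≠ 0 := fun h h0 => h.2 (by simp [h0])
  obtain ⟨i, j, hij, h5⟩ := C.rank J ![Ms p e n, Classical.epsilon (J0 p)] (fun Φ R h0 => by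
      by_contra h5
      obtain ⟨m, h6, h7, -⟩ := C.top J R (h0 0) h5
      exact h6 ((h Φ R (h0 0) m _ h7 (Classical.epsilon_spec ⟨m, h7⟩)).trans (h0 1)))
    (κ := Fin 3) (by simp) ![(1, 1), (x, y), (x', y')]
    (by simp [Fin.forall_fin_succ, h1.1, h2.1]) (by simp [Fin.forall_fin_succ, h4 h1, h4 h2])
  fin_cases i <;> fin_cases j <;> simp [h3 h1, h3 h2] at hij h5
  · obtain ⟨k, hk, c, hc, a, b⟩ := h5
    exact ⟨k, hk, 1, c⁻¹, by simpa using a.symm, by simp only at b; simp [b, hc]⟩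
  · obtain ⟨k, hk, c, hc, a, b⟩ := h5
    exact ⟨k⁻¹, H.inv_mem hk, 1, c, by simp only at a; simp [a], by simp only at b; simp [b]⟩

end H53.SG
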