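import Cfsg.Agent.H53.SGB

/-! Assembly of the tower SG, 3: the prime field. -/

set_option autoImplicit false
set_option linter.unusedSectionVars false

namespace H53.SG

open Finsupp MvPolynomial Module
open scoped Classical

universe u v

variable {F : Type u} [Field F] {K : Type v} [Field K] [Algebra F K]

/-- nonzero vectors -/
def nz (H : Subgroup (K ≃ₗ[F] K)) : SubMulAction H K where
  carrier := {x | x ≠ 0}
  smul_mem' := fun k x hx => by
    change k.1 x ≠ 0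
    simpa using hx

/-- multiplications -/
def AA (H : Subgroup (K ≃ₗ[F] K)) : Subgroup H :=
  (DistribMulAction.toModuleAut F K : Kˣ →* _).range.subgroupOf H

/-- scalars -/
def ZZ (H : Subgroup (K ≃ₗ[F] K)) : Subgroup H :=
  (DistribMulAction.toModuleAut F K : Fˣ →* _).range.subgroupOf H

variable {H : Subgroup (K ≃ₗ[F] K)}

theorem mem_AA {a : H} : a ∈ AA H ↔ ∃ t : K, ∀ x, a.1 x = t * x :=
  ⟨fun ⟨t, h⟩ => ⟨t, fun x => by rw [show a.1 = _ from h.symm]; rfl⟩, fun ⟨t, h⟩ =>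
    ⟨Units.mk0 t fun h0 => one_ne_zero (a.1.injective (by rw [h, h0, zero_mul, map_zero])),
      LinearEquiv.ext fun x => (h x).symm⟩⟩

theorem mem_ZZ {a : H} : a ∈ ZZ H ↔ ∃ c : F, c ≠ 0 ∧ ∀ x, a.1 x = c • x :=
  ⟨fun ⟨t, h⟩ => ⟨t, t.ne_zero, fun x => by rw [show a.1 = _ from h.symm]; rfl⟩, fun ⟨t, h0, h⟩ =>
    ⟨Units.mk0 t h0, LinearEquiv.ext fun x => (h x).symm⟩⟩

instance : (ZZ H).Normal := ⟨fun z hz k => by
  obtain ⟨c, hc, h⟩ := mem_ZZ.1 hz
  exact mem_ZZ.2 ⟨c, hc, fun x => by simp [h]⟩⟩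

theorem mul_of_comm [Finite K] (hn : (finrank F K).Prime) (k : K ≃ₗ[F] K) {u : K}
    (hu : ∀ a : F, algebraMap F K a ≠ u) (h : ∀ x, k (u * x) = u * k x) (x : K) :
    k x = k 1 * x := by
  let S : Subalgebra F K :=
    { carrier := {s | ∀ x, k (s * x) = s * k x}
      mul_mem' := fun {a b} ha hb x => by rw [mul_assoc, ha, hb, mul_assoc]
      add_mem' := fun {a b} ha hb x => by rw [add_mul, map_add, ha, hb, add_mul]
      algebraMap_mem' := fun a x => by simp [← Algebra.smul_def] }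
  rcases (Subalgebra.isSimpleOrder_of_finrank_prime F K hn).eq_bot_or_eq_top S with h1 | h1
  · obtain ⟨a, ha⟩ := Algebra.mem_bot.1 (h1 ▸ show u ∈ S from h)
    exact (hu a ha).elim
  · simpa [mul_comm] using (h1 ▸ Algebra.mem_top : x ∈ S) 1

theorem sq_lt {n : ℕ} (h : 5 ≤ n) : n * n + 1 < 2 ^ n := by
  induction n, h using Nat.le_induction with
  | base => norm_num
  | succ n hn ih => rw [pow_succ]; nlinarith

variable {p e n : ℕ} [NeZero (e * n)] [Finite F] [Fintype K] [CharP K p] (J : Jobs.{v}) {g μ : ℕ}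
  {θ : K} (C : Ctx H p e n g μ θ) {Φ : MvPolynomial (Vr e n) K}

namespace Ctx

include C

theorem pow_alg {a : F} (ha : a ≠ 0) : algebraMap F K a ^ (p ^ e - 1) = 1 := by
  have := Fintype.ofFinite F
  rw [← map_pow, ← C.hq, Nat.card_eq_fintype_card, FiniteField.pow_card_sub_one_eq_one a ha, map_one]

theorem alg_of_pow {t : K} (h : t ^ (p ^ e - 1) = 1) : ∃ a : F, algebraMap F K a = t :=
  mem_range_of_pow (by
    rw [C.hq, ← Nat.sub_add_cancel (le_of_lt C.q_facts.2.2), pow_succ, h, one_mul])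

theorem big : n * n * g < ∑ i ∈ Finset.range n, (p ^ e) ^ i := by
  obtain ⟨-, hμ, hq⟩ := C.q_facts
  have n5 := C.n5
  have h1 := C.μg
  rcases C.g1 with ⟨rfl, -⟩ | rfl
  · have h2 := sq_lt n5
    have h3 := geom_sum_mul_of_one_le (one_le_two (α := ℕ)) n
    have h4 : ∑ i ∈ Finset.range n, 2 ^ i ≤ ∑ i ∈ Finset.range n, (p ^ e) ^ i := by gcongr
    omega
  · have h2 : g < p ^ e := by have := Nat.mul_le_mul_right g hμ; omega
    calc g * g * g = g ^ 3 := by ring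
      _ < (p ^ e) ^ 3 := by gcongr
      _ ≤ _ := Finset.single_le_sum (f := fun i => (p ^ e) ^ i) (by simp) (by simp; omega)

theorem pow_eq_one {t : K} (h : t ^ (μ * ∑ i ∈ Finset.range n, (p ^ e) ^ i) = 1) {a : F}
    (ha : algebraMap F K a = t ^ (p ^ e - 1)) : t ^ (p ^ e - 1) = 1 := by
  obtain ⟨-, hμ, hq⟩ := C.q_facts
  have n5 := C.n5
  have t0 : t ≠ 0 := fun h0 => by
    rw [h0, zero_pow (mul_pos hμ (C.big.trans_le' (Nat.zero_le _))).ne'] at h
    exact zero_ne_one h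
  have a0 : a ≠ 0 := fun h0 => pow_ne_zero _ t0 (by rw [← ha, h0, map_zero])
  have h1 := C.pow_alg (K := K) a0
  set u := algebraMap F K a
  have h2 : ∀ i, t ^ (p ^ e) ^ i = u ^ i * t := fun i => by
    induction i with
    | zero => simp
    | succ i ih =>
      rw [pow_succ, pow_mul, ih, ← Nat.sub_add_cancel (le_of_lt hq), pow_succ, mul_pow, ← ha,
        ← pow_mul, mul_comm i, pow_mul, h1]
      ring
  have h3 : u ^ n = 1 := by
    have := h2 n
    rw [← pow_mul, ← C.card, FiniteField.pow_card] at this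
    exact (mul_eq_right₀ t0).1 this.symm
  rcases C.g1 with ⟨-, hg⟩ | rfl
  · rw [← ha, ← pow_one u, ← hg.gcd_eq_one]
    exact pow_gcd_eq_one.2 ⟨h3, h1⟩
  · obtain ⟨j, hj⟩ := C.npr.odd_of_ne_two (by omega)
    have h4 := Finset.sum_range_id_mul_two g
    have h5 : ∑ i ∈ Finset.range g, i = g * j := by
      rw [show g - 1 = j * 2 by omega, ← mul_assoc] at h4
      omega
    rw [mul_comm, pow_mul, ← Finset.prod_pow_eq_pow_sum] at h
    simp only [h2, Finset.prod_mul_distrib] at h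
    rw [Finset.prod_pow_eq_pow_sum, h5, pow_mul u, h3] at h
    rw [← C.μg, mul_comm, pow_mul]
    simpa using h

theorem θF (a : F) : algebraMap F K a ≠ θ := fun h => by
  have h1 := C.pow_alg (K := K) (a := a) fun h0 => C.θ0 (by rw [← h, h0, map_zero])
  obtain ⟨-, hμ, hq⟩ := C.q_facts
  have h2 := Nat.le_of_dvd (by omega) (orderOf_dvd_of_pow_eq_one h1)
  rw [h, C.ord, ← C.μg] at h2
  have h3 := C.big
  have n5 := C.n5
  have h4 := Nat.le_of_mul_le_mul_left h2 hμ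
  nlinarith [Nat.zero_le g, Nat.mul_le_mul n5 n5]

theorem cc (a : H) (ha : a ∈ AA H) (hz : a ∉ ZZ H) (k : H) :
    k * a * k⁻¹ * a⁻¹ ∈ ZZ H ↔ k ∈ AA H := by
  obtain ⟨t, ht⟩ := mem_AA.1 ha
  refine ⟨fun h => ?_, fun h => ?_⟩
  · obtain ⟨c, hc, h⟩ := mem_ZZ.1 h
    have h1 : ∀ x, k.1 (t * x) = algebraMap F K c * (t * k.1 x) := fun x => by
      have := h (a.1 (k.1 x))
      simp only [Subgroup.coe_mul, Subgroup.coe_inv, LinearEquiv.mul_apply, LinearEquiv.coe_inv,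
        LinearEquiv.symm_apply_apply] at this
      simpa [ht, Algebra.smul_def] using this
    have h2 : ∀ i x, k.1 (t ^ i * x) = algebraMap F K c ^ i * (t ^ i * k.1 x) := fun i => by
      induction i with
      | zero => simp
      | succ i ih => exact fun x => by rw [pow_succ', mul_assoc, h1, ih]; ring
    refine mem_AA.2 ⟨_, mul_of_comm (C.hn ▸ C.npr) k.1 (u := t ^ (p ^ e - 1)) (fun b hb => ?_)
      fun x => by rw [h2, C.pow_alg hc, one_mul]⟩
    have h3 := C.pow_eq_one (C.mulC a a.2 t ht) hb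
    obtain ⟨d, rfl⟩ := C.alg_of_pow h3
    refine hz (mem_ZZ.2 ⟨d, fun h0 => ?_, fun x => by rw [ht, Algebra.smul_def]⟩)
    exact one_ne_zero (a.1.injective (by rw [ht, h0, map_zero, zero_mul, map_zero]))
  · obtain ⟨s, hs⟩ := mem_AA.1 h
    have : k * a = a * k := Subtype.ext (LinearEquiv.ext fun x => by simp [hs, ht, mul_left_comm])
    simp [this]

theorem relIndex_ZZ : n * n < (ZZ H).relIndex (AA H) := by
  have : Finite (K ≃ₗ[F] K) := DFunLike.finite _
  have h0 : ZZ H ≤ AA H := fun z hz => by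
    obtain ⟨c, -, h⟩ := mem_ZZ.1 hz
    exact mem_AA.2 ⟨algebraMap F K c, fun x => by rw [h, Algebra.smul_def]⟩
  have h1 : Nat.card (ZZ H) ≤ μ * g := by
    rw [C.μg, ← C.hq, ← Nat.card_units]
    choose f hf using fun z : ZZ H => (z.2 : ∃ _, _)
    exact Nat.card_le_card_of_injective f fun z z' h =>
      Subtype.ext (Subtype.ext ((hf z).symm.trans (h ▸ hf z')))
  obtain ⟨k, hk, h⟩ := C.mulθ
  have h2 : orderOf θ ≤ Nat.card (AA H) := by
    refine le_trans (Nat.le_of_dvd (orderOf_pos (⟨⟨k, hk⟩, mem_AA.2 ⟨θ, h⟩⟩ : AA H))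
      (orderOf_dvd_of_pow_eq_one ?_)) orderOf_le_card
    have h3 : ∀ i x, (k ^ i) x = θ ^ i * x := fun i => by
      induction i with
      | zero => simp
      | succ i ih => exact fun x => by rw [pow_succ, LinearEquiv.mul_apply, ih, h]; ring
    rw [← mul_one (θ ^ _), ← h3, ← Subgroup.orderOf_coe, ← Subgroup.orderOf_coe, pow_orderOf_eq_one]
    rfl
  have h3 := (ZZ H).subgroupOf (AA H) |>.index_mul_card
  rw [Nat.card_congr (Subgroup.subgroupOfEquivOfLe h0).toEquiv] at h3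
  rw [C.ord, ← h3] at h2
  have h4 := Nat.mul_lt_mul_of_pos_left C.big C.q_facts.2.1
  by_contra h5
  have := Nat.mul_le_mul (not_lt.1 h5) h1
  rw [Subgroup.relIndex] at this
  nlinarith

include J

theorem relIndex_AA : (AA H).relIndex (Subgroup.normalizer (AA H : Set H)) ≤ e * n := by
  obtain ⟨k₀, hk₀, h₀⟩ := C.mulθ
  have h1 : ∀ k : Subgroup.normalizer (AA H : Set H), ∃ t, ∀ x, k.1.1 (θ * x) = t * k.1.1 x :=
    fun k => by
      obtain ⟨t, ht⟩ := mem_AA.1 ((k.2 ⟨k₀, hk₀⟩).1 (mem_AA.2 ⟨θ, h₀⟩))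
      exact ⟨t, fun x => by simpa [h₀] using ht (k.1.1 x)⟩
  choose f hf using h1
  rw [Subgroup.relIndex, CK.index_eq_ncard _ f fun k k' => ⟨fun h => ?_, fun h => ?_⟩]
  · refine (Set.ncard_le_ncard (t := Set.range fun t : ZMod (e * n) => θ ^ p ^ t.val) ?_).trans ?_
    · rintro _ ⟨k, rfl⟩
      obtain ⟨A, hA⟩ := C.exists_rep J k.1.1
      have h2 : ∀ x, k.1.1 x = ∑ t', A t' 0 * x ^ p ^ t'.val := fun x => by simpa using hA.2 x 0
      have h3 := C.indep J (a := fun t => A t 0 * θ ^ p ^ t.val) (b := fun t => A t 0 * f k)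
        fun x => by simpa [h2, Finset.mul_sum, mul_pow, mul_assoc, mul_left_comm] using hf k x
      by_contra h4
      refine one_ne_zero (k.1.1.injective (?_ : k.1.1 1 = k.1.1 0))
      rw [h2, map_zero]
      refine Finset.sum_eq_zero fun t _ => ?_
      rw [not_not.1 fun h5 => h4 ⟨t, mul_left_cancel₀ h5 (congrFun h3 t)⟩, zero_mul]
    · rw [← Set.image_univ]
      exact (Set.ncard_image_le).trans (by simp [Set.ncard_univ])
  · refine mem_AA.2 ⟨_, mul_of_comm (C.hn ▸ C.npr) _ C.θF fun x => k.1.1.injective ?_⟩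
    rw [hf, h]
    simpa using hf k' x
  · obtain ⟨s, hs⟩ := mem_AA.1 h
    have h2 : ∀ x, k'.1.1 x = k.1.1 (s * x) := fun x => by simp [← hs]
    have h3 := hf k' 1
    rw [h2, h2, mul_left_comm, hf, ← h2] at h3
    exact mul_right_cancel₀ (by simp) h3

theorem vanish (R : Rp p H Φ) (h0 : coeff (Ms p e n) Φ = 0) (h : ∀ m, J0 p m → coeff m Φ = 0) :
    Φ = 0 := by
  by_contra h1
  obtain ⟨m, h2, h3, -⟩ := C.top J R h0 h1
  exact h2 (h m h3)

theorem sum_ev (R : Rp p H Φ) (h0 : coeff (Ms p e n) Φ = 0) {t : K} :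
    ∑ x : Kˣ, ev p Φ x (t * x) = - ∑ᶠ m ∈ {m | J0 p m}, coeff m Φ * t ^ vc p m true := by
  rw [finsum_mem_eq_sum_of_inter_support_eq _ (t := Φ.support.filter (J0 p)) (by
    ext m
    by_cases h : coeff m Φ = 0 <;> simp [h]), Finset.sum_filter, ← Finset.sum_neg_distrib]
  conv_lhs => rw [Φ.as_sum]
  simp only [ev_sum, ev_monomial]
  rw [Finset.sum_comm]
  refine Finset.sum_congr rfl fun m hm => ?_
  rw [MvPolynomial.mem_support_iff] at hm
  have h1 : J0 p m ↔ Fintype.card K - 1 ∣ val p (eta m) := by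
    rw [C.card]
    refine ⟨fun h => by rw [val_const C.hp h.eta], fun h => ⟨?_, C.x0 J R hm, C.y0 J R hm,
      C.dvd_x J R hm⟩⟩
    obtain ⟨δ, w, h1, h2⟩ := (J.num p e n 1 _ C.hp (mul_one _)).1 _ (eta_le (R.red m hm))
      (C.eta0 J R hm) (by
        rwa [mul_comm, geom_sum_mul_of_one_le (le_of_lt C.q_facts.2.2), ← pow_mul])
    exact eta_of_car (R.red m hm) (fun h2 => hm (h2 ▸ h0)) h1 (h2 rfl)
  have h2 : ∀ x : K, coeff m Φ * (x ^ vc p m false * (t * x) ^ vc p m true) =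
      coeff m Φ * t ^ vc p m true * x ^ val p (eta m) := fun x => by rw [val_eta]; ring
  simp only [h2, ← Finset.mul_sum, FiniteField.sum_pow_units, h1]
  split_ifs <;> simp

theorem rank1 (he : e = 1) (s : Fin (n + 1) → K × K) (h1 : ∀ j, (s j).1 ≠ 0)
    (h2 : ∀ j, (s j).2 ≠ 0) : ∃ i j, i ≠ j ∧ Rl H (s i) (s j) := by
  refine C.rank J (fun L : Fin n => if L.1 = 0 then Ms p e n else Classical.epsilon
    fun m => J0 p m ∧ ∑ t, m (false, t) = (p - 1) * L) (fun Φ R h => ?_) (by simp) s h1 h2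
  have n5 := C.n5
  have h0 : coeff (Ms p e n) Φ = 0 := h ⟨0, by omega⟩
  refine C.vanish J R h0 fun m hm => ?_
  obtain ⟨L, hL⟩ : p - 1 ∣ ∑ t, m (false, t) := by
    have h3 := hm.dvd
    rw [show p ^ e = p by rw [he, pow_one]] at h3
    refine (Nat.modEq_zero_iff_dvd.1 (Nat.ModEq.trans ?_ (Nat.modEq_zero_iff_dvd.2 h3)))
    refine Nat.ModEq.sum fun t _ => ?_
    simpa using (((Nat.modEq_iff_dvd' C.hp.one_le).2 dvd_rfl).pow t.val).mul_left (m (false, t))
  obtain ⟨t, ht⟩ := hm.x0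
  obtain ⟨t', ht'⟩ := hm.y0
  have h3 := Finset.single_le_sum (f := fun t => m (false, t)) (by simp) (Finset.mem_univ t)
  have h4 := Finset.single_le_sum (f := fun t => m (true, t)) (by simp) (Finset.mem_univ t')
  have h5 : ∑ t, m (false, t) + ∑ t, m (true, t) = (p - 1) * n := by
    rw [← Finset.sum_add_distrib]
    change ∑ t, eta m t = _
    simp [hm.eta, he, mul_comm]
  have L0 : L ≠ 0 := fun h6 => by simp only [h6] at hL; omega
  have Ln : L < n := lt_of_mul_lt_mul_left (a := p - 1) (by omega) (Nat.zero_le _)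
  have h6 := Classical.epsilon_spec (p := fun m : Mon e n => J0 p m ∧
    ∑ t, m (false, t) = (p - 1) * L) ⟨m, hm, hL⟩
  rw [C.coeff_eq J R h0 hm h6.1 (.inr (hL.trans h6.2.symm))]
  simpa [L0] using h ⟨L, Ln⟩

theorem exists_AA {t : K} (h : t ^ (μ * ∑ i ∈ Finset.range n, (p ^ e) ^ i) = 1)
    (h' : t ^ (p ^ e - 1) ≠ 1) : ∃ a ∈ AA H, a ∉ ZZ H ∧ ∀ x, a.1 x = t * x := by
  obtain ⟨k, hk, h1⟩ := C.mulθ
  have : NeZero (orderOf θ) := ⟨C.ord ▸ (mul_pos C.q_facts.2.1 (C.big.trans_le' (Nat.zero_le _))).ne'⟩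
  obtain ⟨i, -, rfl⟩ := (IsPrimitiveRoot.orderOf θ).eq_pow_of_pow_eq_one (C.ord ▸ h)
  have h3 : ∀ i x, (k ^ i) x = θ ^ i * x := fun i => by
    induction i with
    | zero => simp
    | succ i ih => exact fun x => by rw [pow_succ, LinearEquiv.mul_apply, ih, h1]; ring
  refine ⟨⟨k ^ i, H.pow_mem hk i⟩, mem_AA.2 ⟨_, h3 i⟩, fun h4 => ?_, h3 i⟩
  obtain ⟨c, hc, h4⟩ := mem_ZZ.1 h4
  have := (h3 i 1).symm.trans (h4 1)
  rw [mul_one, ← Algebra.algebraMap_eq_smul_one] at this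
  exact h' (this ▸ C.pow_alg hc)

theorem const (R : Rp p H Φ) (h0 : coeff (Ms p e n) Φ = 0) (m m' : Mon e n) (hm : J0 p m)
    (hm' : J0 p m') : coeff m Φ = coeff m' Φ := by
  by_cases he : 2 ≤ e
  · exact C.coeff_eq J R h0 hm hm' (.inl he)
  replace he : e = 1 := by have := C.q_facts.1; omega
  have hp : p ^ e = p := by rw [he, pow_one]
  have : Finite (K ≃ₗ[F] K) := DFunLike.finite _
  refine J.e1 p e n g μ K (fun m => coeff m Φ) C.hp he C.npr C.n5 C.card (hp ▸ C.μg)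
    (C.g1.imp_left And.left) (fun m m' h h' h1 => C.coeff_eq J R h0 h h' (.inr h1))
    (fun t t' h1 h2 h1' h2' => ?_) m m' hm hm'
  obtain ⟨a, ha, ha', hat⟩ := C.exists_AA J (t := t) (by rwa [hp]) (by rwa [hp])
  obtain ⟨b, hb, hb', hbt⟩ := C.exists_AA J (t := t') (by rwa [hp]) (by rwa [hp])
  have h3 : ∀ (a : H) (t : K), (∀ x, a.1 x = t * x) →
      ∑ x : nz H, ev p Φ x.1 (a • x).1 = ∑ x : Kˣ, ev p Φ x (t * x) := fun a t h =>
    (Fintype.sum_equiv (show Kˣ ≃ nz H from unitsEquivNeZero) _ _ fun x => by rw [← h]; rfl).symm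
  rw [← neg_inj, ← C.sum_ev J R h0, ← C.sum_ev J R h0, ← h3 a t hat, ← h3 b t' hbt]
  refine J.exc H (nz H) (ZZ H) (AA H) n n (fun z hz => ?_) C.cc (fun a ha hz z hz' x h => hz ?_)
    (fun z hz x h => ?_) (by simpa [he] using C.relIndex_AA J) (by have := C.n5; omega)
    C.relIndex_ZZ (fun s => ?_) K (fun x y => ev p Φ x.1 y.1) (fun k z hz x y => ?_)
    a ha ha' b hb hb'
  · obtain ⟨c, -, h⟩ := mem_ZZ.1 hz
    exact mem_AA.2 ⟨algebraMap F K c, fun x => by rw [h, Algebra.smul_def]⟩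
  · obtain ⟨t, ht⟩ := mem_AA.1 ha
    obtain ⟨c, hc, h1⟩ := mem_ZZ.1 hz'
    have h2 : a.1 x.1 = z.1 x.1 := congrArg Subtype.val h
    rw [ht, h1, Algebra.smul_def] at h2
    exact mem_ZZ.2 ⟨c, hc, fun y => by rw [ht, mul_right_cancel₀ x.2 h2, Algebra.smul_def]⟩
  · obtain ⟨c, -, h1⟩ := mem_ZZ.1 hz
    have h2 : z.1 x.1 = x.1 := congrArg Subtype.val h
    rw [h1, Algebra.smul_def, mul_eq_right₀ x.2] at h2
    exact Subtype.ext (LinearEquiv.ext fun y => by simp [h1, Algebra.smul_def, h2])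
  · obtain ⟨i, j, hij, k, hk, c, hc, h1, h2⟩ := C.rank1 J he (fun i => ((s i).1.1, (s i).2.1))
      (fun i => (s i).1.2) fun i => (s i).2.2
    obtain ⟨z, hz, h3⟩ := C.sc c hc
    refine ⟨i, j, hij, ⟨k, hk⟩, ⟨z, hz⟩, mem_ZZ.2 ⟨c, hc, h3⟩, Subtype.ext h1,
      Subtype.ext (h2.trans ?_)⟩
    change _ = k (z _)
    rw [h3, map_smul]
  · obtain ⟨c, hc, h⟩ := mem_ZZ.1 hz
    change ev p Φ (k.1 x.1) (k.1 (z.1 y.1)) = _
    rw [h, map_smul, R.inv.inv k k.2 c hc]

end Ctx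

theorem main (J : Jobs.{v}) : Main.{u, v} := by
  intro F _ _ K _ _ _ H npr n5 hdet hmul ⟨k₁, hk₁, h₁⟩ ⟨k₂, hk₂, h₂⟩
  have : Finite K := Module.finite_of_finite F
  have := Fintype.ofFinite K
  have := Fintype.ofFinite F
  obtain ⟨p, hp⟩ := CharP.exists F
  have : CharP K p := charP_of_injective_algebraMap (algebraMap F K).injective p
  obtain ⟨e, hp, hq⟩ := FiniteField.card F p
  rw [← Nat.card_eq_fintype_card] at hq
  set n := finrank F K with hn
  have : NeZero (e * n) := ⟨mul_ne_zero e.ne_zero npr.ne_zero⟩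
  have hle : ∀ k ∈ H, k ∈ CK.addSc H := fun k hk => ⟨k, hk, 1, one_ne_zero, by simp⟩
  obtain ⟨γ, hγ⟩ := IsCyclic.exists_ofOrder_eq_natCard (α := Kˣ)
  obtain ⟨g, μ, h1, h2, c, hc⟩ : ∃ g μ, μ * g = p ^ (e : ℕ) - 1 ∧
      ((g = 1 ∧ n.Coprime (p ^ (e : ℕ) - 1)) ∨ g = n) ∧
      ∃ c : F, c ^ n = Algebra.norm F ((γ : K) ^ g) := by
    by_cases h : n ∣ p ^ (e : ℕ) - 1
    · obtain ⟨μ, h⟩ := h
      exact ⟨n, μ, by rw [h, mul_comm], .inr rfl, _, (map_pow _ _ _).symm⟩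
    · have h1 := npr.coprime_iff_not_dvd.2 h
      let a := Units.map (Algebra.norm F (S := K)) γ
      obtain ⟨m, hm⟩ := exists_pow_eq_self_of_coprime (x := a) (n := n)
        (h1.coprime_dvd_right (by rw [← hq, ← Nat.card_units]; exact orderOf_dvd_natCard a))
      refine ⟨1, _, mul_one _, .inl ⟨rfl, h1⟩, a ^ m, ?_⟩
      rw [← pow_mul, mul_comm, pow_mul, pow_one]
      simpa [a] using congrArg Units.val hm
  have q1 : 1 < p ^ (e : ℕ) := hq ▸ Finite.one_lt_card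
  have g0 : g ≠ 0 := fun h => by simp only [h] at h1; omega
  have c0 : c ≠ 0 := fun h => by
    rw [h, zero_pow npr.ne_zero] at hc
    simpa using (Algebra.norm_eq_zero_iff.1 hc.symm)
  have C : Ctx (CK.addSc H) p e n g μ ((γ : K) ^ g) :=
    { hp := hp, hq := hq, hn := rfl, npr := npr, n5 := n5, μg := h1, g1 := h2
      sc := fun a ha => ⟨LinearEquiv.smulOfNeZero F K a ha, ⟨1, H.one_mem, a, ha, by simp⟩, by simp⟩
      ord := by
        rw [← Units.val_pow_eq_pow_val, orderOf_units, orderOf_pow' _ g0, hγ, Nat.card_units,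
          Module.natCard_eq_pow_finrank (K := F), hq, ← hn, ← geom_sum_mul_of_one_le q1.le, ← h1,
          ← mul_assoc, Nat.gcd_mul_left_left, Nat.mul_div_cancel _ (Nat.pos_of_ne_zero g0), mul_comm]
      mulθ := by
        obtain ⟨k, hk, h⟩ := hmul (algebraMap F K c⁻¹ * γ ^ g) (by
          rw [map_mul, ← hc, Algebra.norm_algebraMap, ← hn, ← mul_pow]; simp [c0])
        exact ⟨LinearEquiv.smulOfNeZero F K c c0 * k, ⟨k, hk, c, c0, by simp⟩, fun x => by
          simp [h, Algebra.smul_def, ← mul_assoc, c0]⟩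
      mulC := by
        rintro _ ⟨k, hk, a, ha, h⟩ t ht
        have h3 : (k : K →ₗ[F] K) = a⁻¹ • Algebra.lmul F K t := LinearMap.ext fun x => by
          simp [← ht, h, ha]
        have h4 := hdet k hk
        rw [h3, LinearMap.det_smul, ← Algebra.norm_apply, ← hn, inv_pow,
          inv_mul_eq_one₀ (pow_ne_zero _ ha)] at h4
        obtain ⟨j, hj⟩ : g ∣ n := by rcases h2 with ⟨rfl, -⟩ | rfl <;> simp
        rw [mul_comm, pow_mul, ← hq, hn, ← FiniteField.algebraMap_norm_eq_pow_sum, ← h4, ← map_pow,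
          ← pow_mul, hj, show g * j * μ = μ * g * j by ring, h1, ← hq, Nat.card_eq_fintype_card,
          pow_mul, FiniteField.pow_card_sub_one_eq_one a ha, one_pow, map_one]
      frob := ⟨k₁, hle _ hk₁, hq ▸ h₁⟩
      nonmono := ⟨k₂, hle _ hk₂, hq ▸ h₂⟩ }
  intro x y x' y' h h'
  obtain ⟨_, ⟨k, hk, a, ha, h3⟩, b, b', h4, h5⟩ := C.t2 J (fun Φ => C.const J) x y x' y' h h'
  exact ⟨k, hk, a⁻¹ * b, a⁻¹ * b', by simp [mul_smul, ← h4, h3, ha], by
    simp [mul_smul, ← h5, h3, ha]⟩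

end H53.SG
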