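import Cfsg.Agent.H13.C6WR
import Cfsg.Agent.H25.RowSU
import Cfsg.Agent.H25.Singer
import Cfsg.Agent.H3.AutP
import Cfsg.Agent.S0813
import Cfsg.Agent.S0815
import Cfsg.Agent.S0280
import Cfsg.Agent.H61.DicksonField

/-! Row S5795: properties of the classes of maximal subgroups of `SU₅(q)`. -/

set_option autoImplicit false
set_option linter.unusedSectionVars false

namespace H53.U5

open Matrix hiding mul_inv_rev
open Cfsg Cfsg.Geo H25 H53.C6 Equiv Module
open scoped commutatorElement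

universe u

abbrev G5 (F : Type u) [Field F] := GL (Fin 5) F
abbrev M5 (F : Type u) := Matrix (Fin 5) (Fin 5) F
abbrev V5 (F : Type u) := Fin 5 → F
abbrev S5 (F : Type u) [Field F] : Subgroup (G5 F) := specialLinear (Fin 5) F
abbrev Z5 (F : Type u) [Field F] : Subgroup (G5 F) := scalars (Fin 5) F

variable {F : Type u} [Field F] {H M : Subgroup (G5 F)} {B g : G5 F}

/-- the subgroup `B⁻¹ H B` -/
def cm (B : G5 F) (H : Subgroup (G5 F)) : Subgroup (G5 F) := H.comap (MulAut.conj B).toMonoidHom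

theorem mem_cm : g ∈ cm B H ↔ B * g * B⁻¹ ∈ H := Iff.rfl

theorem cm_inf (B : G5 F) (H K : Subgroup (G5 F)) : cm B (H ⊓ K) = cm B H ⊓ cm B K := rfl

theorem card_cm (B : G5 F) (H : Subgroup (G5 F)) : Nat.card (cm B H) = Nat.card H :=
  Nat.card_congr ⟨fun g => ⟨B * g * B⁻¹, g.2⟩, fun g => ⟨B⁻¹ * g * B, by simp [mem_cm, mul_assoc]⟩,
    fun g => Subtype.ext (by simp [mul_assoc]), fun g => Subtype.ext (by simp [mul_assoc])⟩

theorem cm_S5 (B : G5 F) : cm B (S5 F) = S5 F := by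
  ext g; simp [mem_cm, specialLinear]

theorem conj_mem_Z5 : B * g * B⁻¹ ∈ Z5 F ↔ g ∈ Z5 F := by
  have k : ∀ B g : G5 F, g ∈ Z5 F → B * g * B⁻¹ ∈ Z5 F := fun B g h => by
    rwa [← comm_of_mem_scalars h, mul_inv_cancel_right]
  exact ⟨fun h => by simpa [mul_assoc] using k B⁻¹ _ h, k B g⟩

theorem isMax_of {G : Type*} [Group G] [Finite G] {Ω M : Subgroup G} (h1 : M ≤ Ω) (h2 : M ≠ Ω)
    (h : ∀ H, IsMaximalIn Ω H → M ≤ H → H ≤ M) : IsMaximalIn Ω M := by
  obtain ⟨H, a1, a2⟩ := Finite.exists_le_maximal (p := fun H => H < Ω) (lt_of_le_of_ne h1 h2)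
  have hH : IsMaximalIn Ω H := ⟨a2.1, fun K b1 b2 => by
    by_contra! hK
    exact hK.1 (le_antisymm (a2.2 (lt_of_le_of_ne b2 hK.2) b1) b1)⟩
  exact le_antisymm (h H hH a1) a1 ▸ hH

theorem exists_basis {v : Fin 5 → V5 F} (h : LinearIndependent F v) :
    ∃ B : G5 F, ∀ i, B.val *ᵥ Pi.single i 1 = v i := by
  obtain ⟨B, hB⟩ : IsUnit (Matrix.of v)ᵀ := linearIndependent_cols_iff_isUnit.1 h
  exact ⟨B, fun i => by ext k; simp [hB]⟩

theorem det_eq_one_of_pow {p : ℕ} [Fact p.Prime] [CharP F p] (h : g ^ p = 1) : g ∈ S5 F := by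
  have := congrArg (fun g : G5 F => g.val.det) h
  simp only [Units.val_pow_eq_pow_val, det_pow, Units.val_one, det_one] at this
  rw [mem_specialLinear, ← (frobenius_inj F p).eq_iff, frobenius_def, this, map_one]

/-! ### Monomial matrices -/

variable (F) in
def Mono : Subgroup (G5 F) where
  carrier := {g | ∃ v σ, g = dg v * pm σ}
  one_mem' := ⟨1, 1, by simp⟩
  mul_mem' := by
    rintro _ _ ⟨v, σ, rfl⟩ ⟨v', σ', rfl⟩
    exact ⟨_, σ * σ', by
      rw [mul_assoc, ← mul_assoc (pm σ), pm_mul_dg, mul_assoc, ← map_mul, ← mul_assoc, ← map_mul]⟩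
  inv_mem' := by
    rintro _ ⟨v, σ, rfl⟩
    exact ⟨_, σ⁻¹, by rw [mul_inv_rev, ← map_inv, ← map_inv, pm_mul_dg]⟩

theorem hom3 (h : cm B H ≤ Mono F) : ∃ π : H →* Perm (Fin 5),
    ∀ g σ, π g = σ ↔ ∃ v, g.1 = B * (dg v * pm σ) * B⁻¹ := by
  choose v σ e using fun g : H => h (x := B⁻¹ * g * B) (by simp [mem_cm, mul_assoc])
  have e' : ∀ g : H, g.1 = B * (dg (v g) * pm (σ g)) * B⁻¹ := fun g => by
    rw [← e]; simp [mul_assoc]
  have k : ∀ (g : H) w τ, g.1 = B * (dg w * pm τ) * B⁻¹ → σ g = τ := fun g w τ h =>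
    (dg_pm_inj (by simpa using (e' g).symm.trans h)).2
  refine ⟨MonoidHom.mk' σ fun a b => k _ (v a * fun i => v b ((σ a)⁻¹ i)) _ ?_,
    fun g τ => ⟨fun h => ⟨v g, h ▸ e' g⟩, fun ⟨w, h⟩ => k g w τ h⟩⟩
  rw [Subgroup.coe_mul, e' a, e' b, conj_mul, mul_assoc (dg _), ← mul_assoc (pm _), pm_mul_dg]
  simp only [map_mul, mul_assoc]

theorem frame {D : Fin 5 → Submodule F (V5 F)} (hD : IsMDecomposition 1 D) {v : Fin 5 → V5 F}
    (hv : ∀ i, v i ∈ D i) (h0 : ∀ i, v i ≠ 0) : ∃ B : G5 F, (∀ i, B.val *ᵥ Pi.single i 1 = v i) ∧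
      cm B (decompositionStabilizer D) = Mono F := by
  obtain ⟨B, hB⟩ := exists_basis (hD.indep.linearIndependent D hv h0)
  have e : ∀ (g : G5 F) i, (D i).map (toLin' (B * g * B⁻¹).val) =
      F ∙ (B.val *ᵥ (g.val *ᵥ Pi.single i 1)) := fun g i => by
    rw [eq_span_of_frame hD (hv i) (h0 i), Submodule.map_span, Set.image_singleton, toLin'_apply,
      ← hB, Units.val_mul, Units.val_mul, ← mulVec_mulVec, ← mulVec_mulVec, gl_inv_mulVec]
  refine ⟨B, hB, Subgroup.ext fun g => ⟨fun ⟨σ, h⟩ => ?_, ?_⟩⟩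
  · refine (exists_dg_pm (g := g) σ fun i j hij => ?_).elim fun w hw => ⟨w, σ, hw⟩
    have := (e g j).symm.trans (h j)
    rw [eq_span_of_frame hD (hv _) (h0 _), ← hB] at this
    obtain ⟨c, hc⟩ := Submodule.mem_span_singleton.1 (this ▸ Submodule.mem_span_singleton_self _)
    have := congrArg (fun x => (B⁻¹.val *ᵥ x) i) hc
    simp only [mulVec_smul, gl_inv_mulVec] at this
    simpa [hij] using this.symm
  · rintro ⟨w, σ, rfl⟩
    refine ⟨σ, fun i => (e _ i).trans ?_⟩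
    have : (dg w * pm σ).val *ᵥ Pi.single i 1 = (w (σ i) : F) • Pi.single (σ i) 1 := by
      ext k; rw [mulVec_single_one, col_apply, dg_pm_apply]; split_ifs with c <;> simp [c]
    rw [this, mulVec_smul, hB, Submodule.span_singleton_smul_eq (w _).isUnit,
      ← eq_span_of_frame hD (hv _) (h0 _)]

/-- a `p`-subgroup of a monomial group is small -/
theorem small3 [Finite F] (h : cm B H ≤ Mono F) {p : ℕ} [Fact p.Prime] [CharP F p] {Γ : Type*}
    [Group Γ] (θ : Γ →* G5 F) (h1 : Function.Injective θ) (h2 : ∀ γ, θ γ ∈ H)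
    (h3 : ∀ γ : Γ, γ ^ p = 1) : Nat.card Γ ≤ 8 := by
  obtain ⟨π, hπ⟩ := hom3 h
  have : Finite Γ := .of_injective _ h1
  have a := Subgroup.card_dvd_of_injective (π.comp (θ.codRestrict H h2))
    ((injective_iff_map_eq_one _).2 fun γ e => h1 (by
      obtain ⟨v, hv⟩ := (hπ _ _).1 e
      have hv : θ γ = B * dg v * B⁻¹ := by simpa using hv
      have a := congrArg θ (h3 γ)
      rw [map_pow, hv, conj_pow, map_one, conj_eq_one_iff, ← map_pow, ← map_one dg] at a
      have : v = 1 := funext fun i => Units.ext ((frobenius_inj F p).eq_iff.1 (by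
        simpa [frobenius_def] using congrArg Units.val (congrFun (dg_inj a) i)))
      simp [hv, this]))
  obtain ⟨k, hk⟩ := IsPGroup.iff_card.1 (show IsPGroup p Γ from fun γ => ⟨1, by simp [h3]⟩)
  rw [hk, Nat.card_eq_fintype_card, Fintype.card_perm] at a
  rw [hk]
  have hp := (Fact.out : p.Prime)
  rcases k with _ | k
  · simp
  have b : p ≤ 120 := Nat.le_of_dvd (by decide) ((dvd_pow_self p (by simp)).trans a)
  have c : k + 1 < 7 := (Nat.pow_lt_pow_iff_right one_lt_two).1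
    (((Nat.pow_le_pow_left hp.two_le _).trans (Nat.le_of_dvd (by decide) a)).trans_lt (by decide))
  exact (by decide +kernel : ∀ p ≤ 120, ∀ k < 7, p.Prime → p ^ k ∣ Nat.factorial 5 → p ^ k ≤ 8)
    p b _ c hp a

/-! ### Field extensions -/

variable {K : Subalgebra F (M5 F)}

theorem mem_field_of_comm (hK : IsFieldSubalgebra 5 K) {a : M5 F}
    (h : ∀ k ∈ K, a * k = k * a) : a ∈ K := by
  have hv : (Pi.single 0 1 : V5 F) ≠ 0 := by simp
  obtain ⟨k, hk, e⟩ := surj_of_field (by simpa using hK) hv (a *ᵥ Pi.single 0 1)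
  refine (mat_ext_mulVec fun w => ?_ : k = a) ▸ hk
  obtain ⟨l, hl, rfl⟩ := surj_of_field (by simpa using hK) hv w
  rw [mulVec_mulVec, mulVec_mulVec, hK.comm k hk l hl, h l hl, ← mulVec_mulVec, e, mulVec_mulVec]

theorem pow_mem_field [Fintype F] (hK : IsFieldSubalgebra 5 K) (hg : g ∈ subalgebraNormalizer K) :
    (g ^ 5).val ∈ K := by
  obtain ⟨j, -, hj⟩ := exists_frob_of_normalizer hK hg
  refine mem_field_of_comm hK fun k hk => ?_
  have h0 : k ^ Fintype.card F ^ 5 = k := by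
    let _ : Field K := (H19.isField_of_subalgebra hK.comm hK.inv).toField
    have := Fintype.ofFinite K
    have := FiniteField.pow_card (⟨k, hk⟩ : K)
    rw [Module.card_eq_pow_finrank (K := F), hK.finrank_eq] at this
    exact congrArg Subtype.val this
  have h1 : ∀ n : ℕ, k ^ (Fintype.card F ^ 5) ^ n = k := fun n => by
    induction n with
    | zero => simp
    | succ n ih => rw [pow_succ, pow_mul, ih, h0]
  have h2 : ∀ n : ℕ, g.val ^ n * k = k ^ Fintype.card F ^ (n * j) * g.val ^ n := fun n => by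
    induction n with
    | zero => simp
    | succ n ih => rw [pow_succ', mul_assoc, ih, ← mul_assoc, hj _ (pow_mem hk _), ← pow_mul,
        ← pow_add, mul_assoc, add_mul, one_mul]
  rw [Units.val_pow_eq_pow_val, h2, pow_mul, h1]

theorem scalar_of_det (hK : IsFieldSubalgebra 5 K) (hg : g.val ∈ K) {c : F}
    (h : (g.val - c • 1).det = 0) : g ∈ Z5 F := by
  refine mem_scalars_of_eq_smul (c := c) (sub_eq_zero.1 ?_)
  by_contra h0
  obtain ⟨y, -, hy⟩ := hK.inv _ (sub_mem hg (K.smul_mem K.one_mem c)) h0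
  simpa [h] using congrArg det hy

theorem scalar_of_invol [Fintype F] (hK : IsFieldSubalgebra 5 K) (hg : g ∈ subalgebraNormalizer K)
    (h : g * g = 1) : g ∈ Z5 F := by
  have h1 := pow_mem_field hK hg
  rw [show g ^ 5 = g * g * (g * g) * g by simp only [pow_succ, pow_zero, one_mul, mul_assoc], h,
    one_mul, one_mul] at h1
  have h2 : (g.val - (1 : F) • 1) * (g.val - (-1 : F) • 1) = 0 := by
    simp [sub_mul, mul_add, ← Units.val_mul, h]
  exact (mul_eq_zero.1 ((det_mul _ _).symm.trans ((congrArg det h2).trans (by simp)))).elim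
    (scalar_of_det hK h1) (scalar_of_det hK h1)

/-! ### Orders -/

theorem card_dvd_of_hom [Fintype F] (hS : H ≤ S5 F) {Γ : Type*} [Group Γ] (φ : H →* Γ)
    (h : ∀ g, φ g = 1 → g.1 ∈ Z5 F) :
    Nat.card H ∣ Nat.gcd 5 (Fintype.card F - 1) * Nat.card Γ := by
  rw [← φ.ker.card_mul_index, Subgroup.index_ker]
  refine mul_dvd_mul ?_ (Subgroup.card_subgroup_dvd_card _)
  rw [← Subgroup.card_map_of_injective H.subtype_injective]
  refine (Subgroup.card_dvd_of_le (K := (powMonoidHom 5 : Fˣ →* Fˣ).ker.map (sc _)) ?_).trans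
    ((Subgroup.card_map_dvd _ _).trans (H59.card_ker_pow (F := F) 5).dvd)
  rintro _ ⟨g, hg, rfl⟩
  obtain ⟨c, hc⟩ := mem_scalars_iff'.1 (h g hg)
  refine ⟨c, Units.ext ?_, hc.symm⟩
  simpa [hc, coe_sc] using mem_specialLinear.1 (hS g.2)

theorem card7 [Fintype F] {R : Subgroup (G5 F)} (hR : Spans R) (hc : Nat.card R = 125) :
    Nat.card ↥(subgroupNormalizer R ⊓ S5 F) ∣ 7440000 := by
  have h1 : Nat.card (MulAut R) ∣ 1488000 := by
    obtain ⟨r, hr, h⟩ := (Nat.dvd_prime_pow Nat.prime_five (m := 3)).1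
      (show (frattini R).index ∣ 5 ^ 3 from
        (by norm_num : 125 = 5 ^ 3) ▸ hc ▸ Subgroup.index_dvd_card _)
    have : Fact (Nat.Prime 5) := ⟨Nat.prime_five⟩
    refine (H3.card_mulAut_dvd (n := 3) hc h).trans ?_
    interval_cases r <;> decide
  refine (card_dvd_of_hom inf_le_right (R.normalizerMonoidHom.comp
    (Subgroup.inclusion inf_le_left)) fun g hg => ?_).trans
    (mul_dvd_mul (Nat.gcd_dvd_left 5 _) h1)
  have : _ ∈ R.normalizerMonoidHom.ker := hg
  rw [Subgroup.normalizerMonoidHom_ker] at this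
  exact mem_scalars_of_comm_eq_one hR fun x hx =>
    commutatorElement_eq_one_iff_mul_comm.2 (this x hx).symm

theorem card8 [Fintype F] (hS : H ≤ S5 F) {P : Subgroup (G5 F)} (hP : IsResidualCore H P)
    {Y : Type*} [Group Y] (e : (P ⧸ (Z5 F).subgroupOf P) ≃* Y) :
    Nat.card H ∣ Nat.gcd 5 (Fintype.card F - 1) * Nat.card (MulAut Y) := by
  have : (Z5 F).Normal := ⟨fun _ h _ => conj_mem_Z5.2 h⟩
  let mk := QuotientGroup.mk' (Z5 F)
  have hk : (mk.comp P.subtype).ker = (Z5 F).subgroupOf P := by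
    rw [← MonoidHom.comap_ker, QuotientGroup.ker_mk']; rfl
  let Q := (mk.comp P.subtype).range
  let e' : Q ≃* Y := ((QuotientGroup.quotientKerEquivRange _).symm.trans
    (QuotientGroup.quotientMulEquivOfEq hk)).trans e
  have hN : ∀ g : H, (mk.comp H.subtype) g ∈ Subgroup.normalizer (Q : Set _) := fun g =>
    Subgroup.mem_normalizer_fintype (by
      rintro _ ⟨x, rfl⟩; exact ⟨⟨_, hP.normal g g.2 x x.2⟩, rfl⟩)
  rw [← Nat.card_congr (MulAut.congr e').toEquiv]
  refine card_dvd_of_hom hS (Q.normalizerMonoidHom.comp (MonoidHom.codRestrict _ _ hN))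
    fun g hg => hP.centralizer_scalar g g.2 fun x hx => ?_
  have : _ ∈ Q.normalizerMonoidHom.ker := hg
  rw [Subgroup.normalizerMonoidHom_ker] at this
  have : mk x * mk g = mk g * mk x := this _ ⟨⟨x, hx⟩, rfl⟩
  rw [← QuotientGroup.eq_one_iff]
  change mk _ = 1
  simp only [map_mul, map_inv, ← this]; simp

theorem card_aut11 : Nat.card (MulAut (ProjectiveSpecialLinearGroup (Fin 2) (ZMod 11))) = 1320 := by
  have : Fact (Nat.Prime 11) := ⟨by norm_num⟩
  rw [Cfsg.Agent.S0813.result 11 1 le_rfl (by simp) 2 le_rfl (by simp), H61.card_pgl_two]; simp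

theorem card_aut42 {K : Type} [Field K] [Fintype K] (h : Fintype.card K = 4) :
    Nat.card (MulAut (PSU 4 K 2)) = 51840 := by
  have := Cfsg.Agent.S0280.result (q := 2) h 4 (by norm_num)
  rw [Cfsg.Agent.S0815.result 2 1 le_rfl (q := 2) rfl h 4 (by norm_num) (by simp)]
  simp [Finset.prod_range_succ, Nat.even_iff] at this ⊢
  omega

end H53.U5
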