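import Cfsg.Agent.H53.U5A

/-! Row S5795: the ring generated by the involutions of a subgroup of `SL₅`. -/

set_option autoImplicit false
set_option linter.unusedSectionVars false

namespace H53.U5

open Matrix hiding mul_inv_rev
open Cfsg Cfsg.Geo H25 H53.C6 Equiv Module
open H19 (Ent)

universe u

variable {F : Type u} [Field F] {H M : Subgroup (G5 F)} {B P g : G5 F} {F₀ F₁ : Subfield F}
  {σ : F →+* F}

/-- every order over a subfield that contains the involutions of `M` contains `M₅(F₀)` -/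
def Full (F₀ : Subfield F) (M : Subgroup (G5 F)) : Prop :=
  ∀ (F₁ : Subfield F) (A : Subring (M5 F)), (∀ a ∈ A, a.trace ∈ F₁) →
    (∀ c ∈ F₁, ∀ a ∈ A, c • a ∈ A) → (∀ g ∈ M, g * g = 1 → g.val ∈ A) → ∀ a, Ent F₀ a → a ∈ A

theorem Full.cj (h : Full F₀ (cm B M)) {A : Subring (M5 F)} (h1 : ∀ a ∈ A, a.trace ∈ F₁)
    (h2 : ∀ c ∈ F₁, ∀ a ∈ A, c • a ∈ A) (h3 : ∀ g ∈ M, g * g = 1 → g.val ∈ A) {a : M5 F}
    (ha : Ent F₀ a) : H19.cj B a ∈ A :=
  h F₁ (A.comap (H19.cj B : M5 F →+* M5 F)) (fun a ha => H19.trace_cj B a ▸ h1 _ ha)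
    (fun c hc a ha => show H19.cj B _ ∈ A from map_smul (H19.cj B) c a ▸ h2 c hc _ ha)
    (fun g hg e => show H19.cj B _ ∈ A from H19.cj_coe B g ▸ h3 _ hg (by simp [e])) a ha

theorem mem_of_single {A : Subring (M5 F)} (h2 : ∀ c ∈ F₁, ∀ a ∈ A, c • a ∈ A)
    (h : ∀ i, single i 0 1 ∈ A ∧ single 0 i 1 ∈ A) {a : M5 F} (ha : Ent F₁ a) : a ∈ A := by
  rw [matrix_eq_sum_single a]
  exact sum_mem fun i _ => sum_mem fun j _ => by
    simpa using h2 _ (ha i j) _ (mul_mem (h i).1 (h j).2)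

theorem Full.top (h : Full F₀ (cm B M)) {A : Subalgebra F (M5 F)}
    (h3 : ∀ g ∈ M, g * g = 1 → g.val ∈ A) : A = ⊤ := by
  have k : ∀ i j, H19.cj B (single i j 1) ∈ A := fun i j =>
    h.cj (F₁ := ⊤) (A := A.toSubring) (by simp) (fun c _ a ha => A.smul_mem ha c) h3
      fun k l => by rw [single_apply]; split_ifs <;> simp
  refine top_unique fun a _ => H19.cj_cj_inv B a ▸ mem_of_single (F₁ := ⊤)
    (A := (A.comap (H19.cj B : M5 F →ₐ[F] M5 F)).toSubring)
    (fun c _ a ha => Subalgebra.smul_mem _ ha c) (fun i => ⟨k _ _, k _ _⟩) fun _ _ => trivial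

theorem Full.irr (h : Full F₀ (cm B M)) : Irr M :=
  (spans_iff.2 (h.top fun _ hg _ => coe_mem_alg hg)).irr

theorem Full.inv (h : Full F₀ (cm B M)) : ∃ g ∈ M, g * g = 1 ∧ g ∉ Z5 F := by
  by_contra! c
  have := h.top (A := ⊥) fun g hg e => mem_bot_iff_smul.2
    (((mem_scalars_iff g).1 (c g hg e)).elim fun c h => ⟨c, h⟩)
  obtain ⟨c, hc⟩ := mem_bot_iff_smul.1 (this ▸ Algebra.mem_top : (single 0 1 1 : M5 F) ∈ _)
  simpa using congrFun (congrFun hc 0) 1

/-- matrices with entries in `F₀` -/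
def Rat (F₀ : Subfield F) : Subring (M5 F) where
  carrier := {a | Ent F₀ a}
  mul_mem' := Ent.mul
  one_mem' i j := by rw [one_apply]; split_ifs <;> simp
  add_mem' a b i j := add_mem (a i j) (b i j)
  zero_mem' _ _ := zero_mem _
  neg_mem' a i j := neg_mem (a i j)

theorem rat_smul {c : F} (hc : c ∈ F₀) {a : M5 F} (ha : Ent F₀ a) : Ent F₀ (c • a) :=
  fun i j => mul_mem hc (ha i j)

theorem exists_rat (hg : g ∈ subfieldSubgroup F₁ P) (hS : g ∈ S5 F) :
    ∃ c : F, c ≠ 0 ∧ c ^ 5 ∈ F₁ ∧ Ent F₁ (c • H19.cj P⁻¹ g.val) := by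
  obtain ⟨c, h0, hc⟩ := H19.mem_subfieldSubgroup_iff.1 hg
  refine ⟨c, h0, ?_, hc⟩
  have : (c • H19.cj P⁻¹ g.val).det ∈ F₁ := by
    rw [det_apply']
    exact sum_mem fun σ _ => mul_mem (intCast_mem _ _) (prod_mem fun i _ => hc _ _)
  rwa [det_smul, H19.cj_apply, det_units_conj, mem_specialLinear.1 hS, mul_one] at this

theorem rat_of_invol (hg : g ∈ subfieldSubgroup F₁ P) (hS : g ∈ S5 F) (h : g * g = 1) :
    Ent F₁ (H19.cj P⁻¹ g.val) := by
  obtain ⟨c, h0, h5, hc⟩ := exists_rat hg hS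
  have h2 := Ent.mul hc hc 0 0
  rw [smul_mul_smul_comm, ← map_mul, ← Units.val_mul, h, Units.val_one, map_one] at h2
  have h1 : c⁻¹ ∈ F₁ := by
    convert div_mem (mul_mem h2 h2) h5 using 1
    simp; field_simp
  simpa [h0] using rat_smul h1 hc

theorem Full.sub (h : Full F₀ (cm B M)) (h1 : M ≤ subfieldSubgroup F₁ P) (hS : M ≤ S5 F) :
    F₀ ≤ F₁ ∧ ∀ a, Ent F₀ a → Ent F₁ (H19.cj P⁻¹ (H19.cj B a)) := by
  have k : ∀ a, Ent F₀ a → Ent F₁ (H19.cj P⁻¹ (H19.cj B a)) := fun a ha =>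
    h.cj (F₁ := F₁) (A := (Rat F₁).comap (H19.cj P⁻¹ : M5 F →+* M5 F))
      (fun a ha => H19.trace_cj P⁻¹ a ▸ Ent.trace ha)
      (fun c hc a ha => show Ent F₁ (H19.cj P⁻¹ _) from
        map_smul (H19.cj P⁻¹) c a ▸ rat_smul hc ha)
      (fun g hg => rat_of_invol (h1 hg) (hS hg)) ha
  exact ⟨fun c hc => by simpa using k _ (rat_smul hc (Rat F₀).one_mem) 0 0, k⟩

theorem subfield_eq [Finite F] (h : F₀ ≤ F₁) {r s : ℕ} (hr : r.Prime) (hs : s.Prime)
    (e : Nat.card F₀ ^ r = Nat.card F₁ ^ s) : F₀ = F₁ := by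
  let _ := (Subfield.inclusion h).toAlgebra
  have h1 : Nat.card F₁ = Nat.card F₀ ^ finrank F₀ F₁ := Module.natCard_eq_pow_finrank
  rw [h1, ← pow_mul] at e
  obtain rfl : r = _ := Nat.pow_right_injective Finite.one_lt_card e
  rw [((Nat.prime_mul_iff.1 hr).resolve_left fun e => hs.ne_one e.2).2, pow_one] at h1
  exact SetLike.coe_injective (Set.eq_of_subset_of_ncard_le h h1.le)

theorem Full.sub_le [Finite F] (h : Full F₀ (cm B M)) (h1 : M ≤ subfieldSubgroup F₀ P)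
    (hS : M ≤ S5 F) : subfieldSubgroup F₀ P ≤ subfieldSubgroup F₀ B := fun g hg => by
  obtain ⟨c, h0, hc⟩ := H19.mem_subfieldSubgroup_iff.1 hg
  obtain ⟨a, ha⟩ := Finite.surjective_of_injective
    (f := fun a : Rat F₀ => (⟨_, (h.sub h1 hS).2 a a.2⟩ : Rat F₀))
    (fun a b e => Subtype.ext (by simpa using congrArg Subtype.val e)) ⟨_, hc⟩
  refine H19.mem_subfieldSubgroup_iff.2 ⟨c, h0, ?_⟩
  have : H19.cj B a = c • g.val := (H19.cj P⁻¹).injective (by simpa using congrArg Subtype.val ha)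
  rw [← map_smul, ← this, H19.cj_inv_cj]
  exact a.2

/-! ### The monomial group and the orthogonal group are full -/

theorem full_mon (hσ : ∀ a, σ (σ a) = a) (h0 : ∀ c ∈ F₀, σ c ∈ F₀) {ω : F} (hω : ω ∈ F₀)
    (hω' : σ ω ≠ ω) (hM : ∀ (v : Fin 5 → Fˣ) (τ : Perm (Fin 5)),
      (∀ i, (v i : F) ∈ F₀ ∧ v i * σ (v i) = 1) → ∏ i, v i = 1 → τ.sign = 1 → dg v * pm τ ∈ M) :
    Full F₀ M := fun F₁ A h1 h2 h3 => by
  have a1 : ∀ τ : Perm (Fin 5), τ * τ = 1 → τ.sign = 1 → (pm τ : G5 F).val ∈ A := fun τ a b =>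
    h3 _ (by simpa using hM 1 τ (by simp) (by simp) b) (by rw [← map_mul, a, map_one])
  have a2 : ∀ (v : Fin 5 → Fˣ) (τ : Perm (Fin 5)), (∀ i, (v i : F) ∈ F₀ ∧ v i * σ (v i) = 1) →
      ∏ i, v i = 1 → τ * τ = 1 → τ.sign = 1 → (v * fun i => v (τ⁻¹ i)) = 1 → (dg v).val ∈ A :=
    fun v τ a b c d e => by
      have := mul_mem (h3 _ (hM v τ a b d) (by
        rw [mul_assoc, ← mul_assoc (pm τ), pm_mul_dg, mul_assoc, ← map_mul, ← mul_assoc, ← map_mul,
          c, e, map_one, map_one, one_mul])) (a1 τ c d)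
      rwa [← Units.val_mul, mul_assoc, ← map_mul, c, map_one, mul_one] at this
  have a3 : ∀ x ∈ F₀, σ x ≠ x → x / σ x ∈ F₁ ∧ single 0 0 1 ∈ A := fun x hx hx' => by
    have x0 : x ≠ 0 := by rintro rfl; simp at hx'
    have x1 : σ x ≠ 0 := by simpa using x0
    obtain ⟨a, ha⟩ : ∃ a : Fˣ, a = x / σ x := ⟨Units.mk0 _ (div_ne_zero x0 x1), rfl⟩
    have b0 : (a : F) ∈ F₀ := ha ▸ div_mem hx (h0 x hx)
    have b1 : σ a = (a : F)⁻¹ := by simp [ha, hσ]
    have b2 : (a : F) - 1 ≠ 0 := fun e => hx' (by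
      rw [ha, sub_eq_zero, div_eq_one_iff_eq x1] at e; exact e.symm)
    have c1 := a2 ![a, a⁻¹, 1, 1, 1] (swap 0 1 * swap 3 4) (fun i => by
      fin_cases i <;> simp [b0, b1]) (by simp [Fin.prod_univ_five]) (by decide) (by decide)
      (funext fun i => by fin_cases i <;> simp +decide [swap_apply_def])
    have c2 := a2 ![a, 1, a⁻¹, 1, 1] (swap 0 2 * swap 3 4) (fun i => by
      fin_cases i <;> simp [b0, b1]) (by simp [Fin.prod_univ_five]) (by decide) (by decide)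
      (funext fun i => by fin_cases i <;> simp +decide [swap_apply_def])
    have c3 := mul_mem (sub_mem c1 A.one_mem) (sub_mem c2 A.one_mem)
    have c4 := h1 _ (mul_mem c1 c3)
    have e : ((dg ![a, a⁻¹, 1, 1, 1]).val - 1) * ((dg ![a, 1, a⁻¹, 1, 1]).val - 1) =
        ((a - 1 : F) * (a - 1)) • (single 0 0 1 : M5 F) := by
      rw [dg_val, dg_val, ← diagonal_one, diagonal_sub, diagonal_sub, diagonal_mul_diagonal]
      ext i j; fin_cases i <;> fin_cases j <;> simp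
    rw [e] at c3 c4
    have c5 : (a - 1 : F) * (a - 1) ∈ F₁ := by simpa using h1 _ c3
    refine ⟨?_, by simpa [b2, -mul_inv_rev] using h2 _ (inv_mem c5) _ c3⟩
    simpa [dg_val, ← ha, b2, trace_mul_single] using div_mem c4 c5
  have a4 : ∀ x ∈ F₀, σ x ≠ x → x ∈ F₁ := fun x hx hx' => by
    have b1 := (a3 x hx hx').1
    have b2 := (a3 (x + 1) (add_mem hx (one_mem _)) (by simpa using hx')).1
    have x1 : σ x ≠ 0 := by rintro e; exact hx' (by rw [e, ← hσ x, e, map_zero])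
    have x2 : σ x + 1 ≠ 0 := fun e => hx' (by
      have := congrArg σ e; simp only [map_add, hσ, map_one, map_zero] at this
      linear_combination e - this)
    rw [map_add, map_one] at b2
    convert mul_mem b1 (div_mem (sub_mem b2 (one_mem _)) (sub_mem b1 b2)) using 1
    have := sub_ne_zero.2 hx'.symm
    rw [div_sub_one x2, div_sub_div _ _ x1 x2, show x * (σ x + 1) - σ x * (x + 1) = x - σ x by ring,
      add_sub_add_right_eq_sub]
    field_simp
  have a5 : F₀ ≤ F₁ := fun x hx => by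
    by_cases e : σ x = x
    swap
    · exact a4 x hx e
    by_cases x0 : x = 0
    · simp [x0]
    have w0 : ω ≠ 0 := by rintro rfl; simp at hω'
    simpa [w0] using div_mem (a4 _ (mul_mem hx hω) (by simpa [e, x0] using hω')) (a4 ω hω hω')
  refine fun a ha => mem_of_single h2 (fun i => ?_) fun i j => a5 (ha i j)
  obtain ⟨τ, t1, t2, rfl⟩ := (by decide : ∀ i : Fin 5, ∃ τ ∈ [(1 : Perm (Fin 5)),
    swap 0 1 * swap 3 4, swap 0 2 * swap 3 4, swap 0 3 * swap 1 2, swap 0 4 * swap 1 2],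
    (τ * τ = 1 ∧ τ.sign = 1) ∧ τ 0 = i) i
  have t3 : ∀ k, τ k = 0 ↔ k = τ 0 := fun k => by
    rw [← τ.injective.eq_iff, ← Perm.mul_apply, t2.1]; rfl
  constructor
  · convert mul_mem (a1 τ t2.1 t2.2) (a3 ω hω hω').2 using 1
    ext k l; simp [pm_mul_apply, single_apply, Equiv.eq_symm_apply]
  · convert mul_mem (a3 ω hω hω').2 (a1 τ t2.1 t2.2) using 1
    ext k l; simp [mul_pm_apply, single_apply, eq_comm (b := τ l), t3, eq_comm (a := l)]

theorem two_sq [Finite F] (h2 : (2 : F) ≠ 0) {a b c : F} (ha : a ∈ F₀ ∧ a ≠ 0) (hb : b ∈ F₀ ∧ b ≠ 0)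
    (hc : c ∈ F₀) : ∃ x ∈ F₀, ∃ y ∈ F₀, a * x ^ 2 + b * y ^ 2 = c := by
  have := Fintype.ofFinite F₀
  obtain ⟨x, y, e⟩ := FiniteField.exists_root_sum_quadratic (R := F₀)
    (Polynomial.degree_quadratic (a := ⟨a, ha.1⟩) (b := 0) (c := -⟨c, hc⟩) (by simpa [Subtype.ext_iff] using ha.2))
    (Polynomial.degree_quadratic (a := ⟨b, hb.1⟩) (b := 0) (c := 0) (by simpa [Subtype.ext_iff] using hb.2))
    (FiniteField.odd_card_of_char_ne_two fun h3 => h2 (congrArg Subtype.val (by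
      simpa [h3] using ringChar.Nat.cast_ringChar (R := F₀) : (2 : F₀) = 0)))
  refine ⟨x, x.2, y, y.2, ?_⟩
  have := congrArg Subtype.val e
  simp at this
  linear_combination this

theorem full_orth [Finite F] (h2 : (2 : F) ≠ 0) {d : V5 F} (hd : ∀ i, d i ∈ F₀ ∧ d i ≠ 0)
    (hM : ∀ g : G5 F, Ent F₀ g.val → g.valᵀ * diagonal d * g.val = diagonal d → g ∈ S5 F → g ∈ M) :
    Full F₀ M := fun F₁ A h1 h2' h3 => by
  have a1 : ∀ (v : V5 F) (s : F), (∀ i, v i ∈ F₀) → s ≠ 0 → (d * v) ⬝ᵥ v = s →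
      s⁻¹ • vecMulVec v (d * v) ∈ A := fun v s hv s0 e => by
    have hs : s ∈ F₀ := e ▸ sum_mem fun i _ => mul_mem (mul_mem (hd i).1 (hv i)) (hv i)
    set N := s⁻¹ • vecMulVec v (d * v)
    have n1 : N * N = N := by simp [N, vecMulVec_mul_vecMulVec, e, s0]
    have n2 : Nᵀ * diagonal d = diagonal d * N := by
      ext i j; simp [N, vecMulVec_apply]; ring
    have n3 : Ent F₀ N := fun i j => mul_mem (inv_mem hs) (mul_mem (hv i) (mul_mem (hd j).1 (hv j)))
    have n4 : (N + N - 1) * (N + N - 1) = 1 := by simp [mul_sub, sub_mul, mul_add, add_mul, n1]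
    have n5 : (N + N - 1)ᵀ * diagonal d * (N + N - 1) = diagonal d := by
      rw [show (N + N - 1)ᵀ * diagonal d = diagonal d * (N + N - 1) by
        simp [mul_sub, sub_mul, mul_add, add_mul, n2], mul_assoc, n4, mul_one]
    have n6 : N + N - 1 ∈ Rat F₀ := sub_mem (add_mem n3 n3) (one_mem _)
    have n7 : N + N - 1 ∈ A := by
      let g : G5 F := ⟨_, _, n4, n4⟩
      have := congrArg det n4
      rw [det_mul, det_one, mul_self_eq_one_iff] at this
      rcases this with e | e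
      · exact h3 g (hM g n6 n5 (mem_specialLinear.2 e)) (Units.ext n4)
      · exact neg_mem_iff.1 (h3 (-g) (hM _ (neg_mem n6)
          (by rw [Units.val_neg, transpose_neg, neg_mul, neg_mul_neg]; exact n5)
          (mem_specialLinear.2 (by rw [Units.val_neg, det_neg, e]; simp; norm_num)))
          (by simpa using Units.ext n4))
    convert h2' _ (inv_mem (ofNat_mem F₁ 2)) _ (add_mem n7 A.one_mem) using 1
    rw [sub_add_cancel, ← two_smul F, inv_smul_smul₀ h2]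
  have a2 : ∀ i, single i i 1 ∈ A := fun i => by
    convert a1 (Pi.single i 1) (d i) (fun k => by rw [Pi.single_apply]; split_ifs <;> simp) (hd i).2
      (by simp) using 1
    ext k l
    simp only [single_apply, Matrix.smul_apply, vecMulVec_apply, Pi.mul_apply, Pi.single_apply]
    by_cases a : k = i <;> by_cases b : l = i <;> simp [a, b, (hd _).2, eq_comm (a := i)]
  have a3 : ∀ j, ∀ s ∈ F₀, s ≠ 0 → single 0 j (s⁻¹ * d j) ∈ A ∧ single j 0 (s⁻¹ * d 0) ∈ A :=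
    fun j s hs s0 => by
    obtain ⟨v, b1, b2, b3, b4⟩ : ∃ v : V5 F, (∀ i, v i ∈ F₀) ∧ (d * v) ⬝ᵥ v = s ∧ v 0 = 1 ∧
        v j = 1 := by
      obtain ⟨x, hx, y, hy, e⟩ := two_sq h2 (hd 3) (hd 4)
        (sub_mem hs (add_mem (add_mem (hd 0).1 (hd 1).1) (hd 2).1))
      obtain ⟨x', hx', y', hy', e'⟩ := two_sq h2 (hd 1) (hd 2)
        (sub_mem hs (add_mem (add_mem (hd 0).1 (hd 3).1) (hd 4).1))
      by_cases c : j ≤ 2
      · exact ⟨![1, 1, 1, x, y], fun i => by fin_cases i <;> simp [*], by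
          simp [dotProduct, Fin.sum_univ_five]; linear_combination e, rfl, by
          fin_cases j <;> simp at c ⊢⟩
      · exact ⟨![1, x', y', 1, 1], fun i => by fin_cases i <;> simp [*], by
          simp [dotProduct, Fin.sum_univ_five]; linear_combination e', rfl, by
          fin_cases j <;> simp at c ⊢⟩
    have := a1 v s b1 s0 b2
    exact ⟨by simpa [vecMulVec_apply, b3, b4] using mul_mem (mul_mem (a2 0) this) (a2 j),
      by simpa [vecMulVec_apply, b3, b4] using mul_mem (mul_mem (a2 j) this) (a2 0)⟩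
  have a4 : F₀ ≤ F₁ := fun c hc => by
    by_cases c0 : c = 0
    · simp [c0]
    simpa [(hd 0).2] using h1 _ (a3 0 _ (div_mem (hd 0).1 hc) (div_ne_zero (hd 0).2 c0)).1
  exact fun a ha => mem_of_single h2' (fun i =>
    ⟨by simpa [(hd 0).2] using (a3 i _ (hd 0).1 (hd 0).2).2,
      by simpa [(hd i).2] using (a3 i _ (hd i).1 (hd i).2).1⟩) fun i j => a4 (ha i j)

end H53.U5
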