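import Cfsg.Agent.H53.U5B

/-! Row S5795: frames, unipotent subgroups. -/

set_option autoImplicit false
set_option linter.unusedSectionVars false

namespace H53.U5

open Matrix hiding mul_inv_rev
open Cfsg Cfsg.Geo H25 H53.C6 Equiv Module
open H19 (Ent)

universe u

variable {F : Type u} [Field F] {H M : Subgroup (G5 F)} {B P g : G5 F} {F₀ F₁ : Subfield F}
  {σ : F →+* F} {f : V5 F → V5 F → F} {d : V5 F} {p n : ℕ}

/-- `B` is an orthogonal frame with norms `d` -/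
def Fr (σ : F →+* F) (f : V5 F → V5 F → F) (d : V5 F) (B : G5 F) : Prop :=
  ∀ x y, f (B.val *ᵥ x) (B.val *ᵥ y) = formOfGram σ (diagonal d) x y

theorem fr_of (hf : IsSes σ 1 f) {v : Fin 5 → V5 F} (hB : ∀ i, B.val *ᵥ Pi.single i 1 = v i)
    (h : ∀ i j, f (v i) (v j) = diagonal d i j) : Fr σ f d B := fun x y => by
  have e : ∀ x, B.val *ᵥ x = ∑ i, x i • v i := fun x => by
    ext k; simp [← hB, mulVec, dotProduct, mul_comm]
  rw [e, e, hf.sum_left]
  simp only [hf.sum_right, hf.smul_left, hf.smul_right, h, formOfGram]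
  exact Finset.sum_congr rfl fun i _ => Finset.sum_congr rfl fun j _ => by ring

theorem Fr.iso (h : Fr σ f d B) (hg : g.valᵀ * diagonal d * g.val.map σ = diagonal d) :
    IsIso f (B * g * B⁻¹) := fun u v => by
  simp only [Units.val_mul, ← mulVec_mulVec]
  rw [h, formOfGram_mulVec, hg, ← h, gl_mulVec_inv, gl_mulVec_inv]

theorem mono_iso {v : Fin 5 → Fˣ} (τ : Perm (Fin 5)) (h : ∀ i, v i * σ (v i) = 1) :
    (dg v * pm τ).valᵀ * diagonal 1 * (dg v * pm τ).val.map σ = diagonal 1 := by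
  ext i j
  simp only [mul_apply (M := _ * diagonal _), mul_diagonal, transpose_apply, map_apply, dg_pm_apply]
  rw [Finset.sum_eq_single (τ i) (fun k _ hk => by simp [hk]) (by simp)]
  by_cases e : i = j <;> simp [e, h]

theorem mono_det {v : Fin 5 → Fˣ} {τ : Perm (Fin 5)} (h : ∏ i, v i = 1) (h' : τ.sign = 1) :
    dg v * pm τ ∈ S5 F := by
  rw [mem_specialLinear, Units.val_mul, det_mul, det_dg, det_pm, ← Units.coe_prod, h, h']; simp

theorem on_frame [Finite F] (hf : IsSes σ 1 f) (hσ : σ ≠ RingHom.id F)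
    {D : Fin 5 → Submodule F (V5 F)} (hD : IsNondegenerateMDecomposition f 1 D) :
    ∃ B, Fr σ f 1 B ∧ cm B (decompositionStabilizer D) = Mono F := by
  have key : ∀ i, ∃ v ∈ D i, f v v = 1 := fun i => by
    obtain ⟨v, hv, hv0⟩ := exists_ne_zero_mem_part hD.decomp i
    obtain ⟨a, ha, ha0⟩ := hf.exists_aniso hσ (hD.nondegenerate i)
      (Submodule.ne_bot_iff _ |>.2 ⟨v, hv, hv0⟩)
    obtain ⟨c, hc⟩ := H59.exists_norm_eq' hσ hf.invol (μ := (f a a)⁻¹)
      (by rw [map_inv₀, hf.map_self])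
    exact ⟨c • a, (D i).smul_mem c ha, by
      rw [hf.smul_left, hf.smul_right, ← mul_assoc, mul_comm c, hc, inv_mul_cancel₀ ha0]⟩
  choose v hv hv1 using key
  obtain ⟨B, h1, h2⟩ := frame hD.decomp hv fun i h0 => by simpa [h0, hf.zero_left] using hv1 i
  refine ⟨B, fr_of hf h1 fun i j => ?_, h2⟩
  by_cases e : i = j
  · simp [e, hv1]
  · rw [hD.orthogonal i j e _ (hv i) _ (hv j), diagonal_apply_ne _ e]

theorem sub_le_of_ent (h : Ent F₀ (P⁻¹ * B).val) : subfieldSubgroup F₀ B ≤ subfieldSubgroup F₀ P :=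
  fun g hg => by
    obtain ⟨c, h0, hc⟩ := H19.mem_subfieldSubgroup_iff.1 hg
    obtain ⟨y, hy⟩ := inv_mem (H19.mem_range_map_of_ent h)
    refine H19.mem_subfieldSubgroup_iff.2 ⟨c, h0, ?_⟩
    have := Ent.mul (Ent.mul h hc) (b := (P⁻¹ * B)⁻¹.val) (hy ▸ fun i j => (y.val i j).2)
    rwa [← H19.cj_apply, map_smul, ← H19.cj_mul, mul_inv_cancel_right] at this

theorem rat_frame [Finite F] (hf : IsSes σ 1 f) (h0 : ∀ c ∈ F₀, σ c ∈ F₀)
    (hP : IsFormRationalStructure f F₀ 1 P) (h : (∃ c ∈ F₀, σ c ≠ c) ∨ (2 : F) ≠ 0) :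
    ∃ B d, Ent F₀ (P⁻¹ * B).val ∧ Fr σ f d B ∧ (∀ i, d i ∈ F₀ ∧ d i ≠ 0) ∧
      ((∃ c ∈ F₀, σ c ≠ c) → d = 1 ∧ ∃ e ∈ F₀, e * σ e = -1) := by
  let σ₀ : F₀ →+* F₀ := (σ.comp F₀.subtype).codRestrict F₀ fun c => h0 c c.2
  let ι : V5 F₀ → V5 F := fun x i => x i
  let f₀ : V5 F₀ → V5 F₀ → F₀ := fun x y => ⟨f (P.val *ᵥ ι x) (P.val *ᵥ ι y), by
    simpa using hP (ι x) (ι y) (fun i => (x i).2) fun i => (y i).2⟩
  have hf₀ : IsSes σ₀ 1 f₀ :=
    { invol := fun a => Subtype.ext (hf.invol a)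
      eps := Or.inl rfl
      add_left := fun x y v => Subtype.ext (by
        change f (P.val *ᵥ (ι x + ι y)) _ = _
        rw [mulVec_add, hf.add_left]; rfl)
      smul_left := fun c x v => Subtype.ext (by
        change f (P.val *ᵥ ((c : F) • ι x)) _ = _
        rw [mulVec_smul, hf.smul_left]; rfl)
      herm := fun v w => Subtype.ext (hf.herm _ _)
      nondeg := fun v hv => by
        have h1 : ι v = 0 := gl_mulVec_eq_zero (hf.nondeg _ fun x => by
          rw [← gl_mulVec_inv P x, pi_eq_sum_univ' (P⁻¹.val *ᵥ x), mulVec_sum, hf.sum_left]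
          refine Finset.sum_eq_zero fun i _ => ?_
          rw [mulVec_smul, hf.smul_left]
          refine mul_eq_zero_of_right _ ?_
          rw [show Pi.single i 1 = ι (Pi.single i 1) from funext fun k => by
            simp [ι, Pi.single_apply, apply_ite]]
          exact congrArg Subtype.val (hv _))
        exact funext fun i => Subtype.ext (congrFun h1 i) }
  obtain ⟨w, d, a1, a2, a3⟩ : ∃ (w : Fin 5 → V5 F₀) (d : V5 F₀), (∀ i, d i ≠ 0) ∧
      (∀ i j, f₀ (w i) (w j) = diagonal d i j) ∧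
      (σ₀ ≠ RingHom.id _ → d = 1 ∧ ∃ e, σ₀ e * e = -1) := by
    by_cases c : σ₀ = RingHom.id _
    · obtain ⟨w, b1, b2⟩ := exists_orth_basis (c ▸ hf₀) fun e => (h.resolve_left fun ⟨x, a, b⟩ =>
        b (congrArg (fun τ : F₀ →+* F₀ => (τ ⟨x, a⟩ : F)) c)) (congrArg F₀.subtype e)
      exact ⟨w, fun i => f₀ (w i) (w i), b1, fun i j => by
        by_cases e : i = j <;> simp [e, b2], fun e => (e c).elim⟩
    · obtain ⟨w, -, hw⟩ := H59.IsHerm.exists_orthonormal_mem (B := LinearMap.mk₂'ₛₗ σ₀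
        (RingHom.id _) (fun x y => f₀ y x) (fun _ _ _ => hf₀.add_right _ _ _)
        (fun _ _ _ => hf₀.smul_right _ _ _) (fun _ _ _ => hf₀.add_left _ _ _)
        fun _ _ _ => hf₀.smul_left _ _ _) ⟨c, hf₀.invol, fun x y => (hf₀.herm' x y).symm,
          hf₀.nondeg⟩ 5 (W := ⊤) (top_disjoint.2 (bot_unique fun x hx =>
            hf₀.nondeg_left x fun y => hx y trivial)) (by simp)
      exact ⟨w, 1, by simp, fun i j => (hw j i).trans (by simp [one_apply, eq_comm]),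
        fun _ => ⟨rfl, H59.exists_norm_eq' c hf₀.invol (by simp)⟩⟩
  have a4 : ∀ i j, f (P.val *ᵥ ι (w i)) (P.val *ᵥ ι (w j)) = diagonal (ι d) i j := fun i j =>
    (congrArg Subtype.val (a2 i j)).trans (by by_cases e : i = j <;> simp [e, ι])
  obtain ⟨B, hB⟩ := exists_basis (v := fun i => P.val *ᵥ ι (w i))
    (Fintype.linearIndependent_iff.2 fun c hc j => by
      have := congrArg (f · (P.val *ᵥ ι (w j))) hc
      simpa [hf.sum_left, hf.smul_left, a4, hf.zero_left, diagonal_apply, ι, a1] using this)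
  refine ⟨B, ι d, fun i j => ?_, fr_of hf hB a4, fun i => ⟨(d i).2, by simpa [ι] using a1 i⟩,
    fun ⟨x, a, b⟩ => ?_⟩
  · have := congrArg (fun x => (P⁻¹.val *ᵥ x) i) (hB j)
    simp only [gl_inv_mulVec] at this
    rw [mulVec_mulVec, mulVec_single_one, col_apply] at this
    rw [Units.val_mul, this]
    exact (w j i).2
  · obtain ⟨rfl, e, he⟩ := a3 fun c => b (congrArg (fun τ : F₀ →+* F₀ => (τ ⟨x, a⟩ : F)) c)
    exact ⟨rfl, e, e.2, (mul_comm _ _).trans (congrArg Subtype.val he)⟩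

/-! ### Unipotent subgroups -/

/-- `M` has a subgroup of order `n` and exponent `p` -/
def PU (p n : ℕ) (M : Subgroup (G5 F)) : Prop := ∃ U ≤ M, Nat.card U = n ∧ ∀ g ∈ U, g ^ p = 1

theorem PU.of_cm (h : PU p n (cm B M)) : PU p n M := by
  obtain ⟨U, h1, h2, h3⟩ := h
  exact ⟨cm B⁻¹ U, fun g hg => by simpa [mem_cm, mul_assoc] using h1 hg, (card_cm _ _).trans h2,
    fun g hg => (MulAut.conj B⁻¹).injective (by rw [map_pow, map_one]; exact h3 _ hg)⟩

theorem PU.dvd (h : PU p n M) (hM : M ≤ H) : n ∣ Nat.card H :=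
  h.elim fun _ h => h.2.1 ▸ Subgroup.card_dvd_of_le (h.1.trans hM)

theorem PU.le [Finite F] [Fact p.Prime] [CharP F p] (h : PU p n M) (hM : M ≤ H)
    (h3 : cm B H ≤ Mono F) : n ≤ 8 :=
  h.elim fun U h => h.2.1 ▸ small3 h3 U.subtype U.subtype_injective (fun γ => hM (h.1 γ.2))
    fun γ => Subtype.ext (h.2.2 _ γ.2)

theorem pu_of [Fact p.Prime] [CharP F p] {A : Type*} [AddCommGroup A] (N : A → M5 F)
    (hm : ∀ a b, N a + N b + N a * N b = N (a + b)) (inj : ∀ a, N a = 0 ↔ a = 0)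
    (hp : ∀ a : A, p • a = 0) (hM : ∀ a (g : G5 F), g.val = 1 + N a → g ∈ S5 F → g ∈ M) :
    PU p (Nat.card A) M := by
  let θ : Multiplicative A →* G5 F := MonoidHom.toHomUnits
    { toFun a := 1 + N a.toAdd
      map_one' := by simp [inj]
      map_mul' a b := by simp [← hm, mul_add, add_mul, add_assoc, add_left_comm] }
  have e : ∀ a, θ a ^ p = 1 := fun a => by
    rw [← map_pow, show a ^ p = 1 from hp a.toAdd, map_one]
  refine ⟨θ.range, by rintro _ ⟨a, rfl⟩; exact hM _ _ rfl (det_eq_one_of_pow (e a)), ?_,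
    by rintro _ ⟨a, rfl⟩; exact e a⟩
  exact Nat.card_congr (MonoidHom.ofInjective ((injective_iff_map_eq_one θ).2 fun a h =>
    (inj _).1 (add_eq_left.1 (congrArg Units.val h)))).toEquiv.symm

theorem pu_orth [Finite F] [Fact p.Prime] [CharP F p] (h2 : (2 : F) ≠ 0)
    (hd : ∀ i, d i ∈ F₀ ∧ d i ≠ 0)
    (hM : ∀ g : G5 F, Ent F₀ g.val → g.valᵀ * diagonal d * g.val = diagonal d → g ∈ S5 F → g ∈ M) :
    PU p (Nat.card F₀ ^ 2) M := by
  obtain ⟨x, hx, y, hy, e⟩ := two_sq h2 (hd 0) (hd 1) (neg_mem (hd 2).1)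
  obtain ⟨t, ht, t2⟩ : ∃ t ∈ F₀, t * 2 = 1 := ⟨2⁻¹, inv_mem (ofNat_mem _ _), inv_mul_cancel₀ h2⟩
  have h0 := fun i => (hd i).1
  let u : V5 F := ![x, y, 1, 0, 0]
  let w : F₀ × F₀ → V5 F := fun a => ![0, 0, 0, a.1, a.2]
  have d1 : (d * u) ⬝ᵥ u = 0 := by simp [u, dotProduct, Fin.sum_univ_five]; linear_combination e
  have d2 : ∀ a, (d * u) ⬝ᵥ w a = 0 := by simp [u, w, dotProduct, Fin.sum_univ_five]
  have d3 : ∀ a, (d * w a) ⬝ᵥ u = 0 := by simp [u, w, dotProduct, Fin.sum_univ_five]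
  have d4 : ∀ a b, w (a + b) = w a + w b := by simp [w]
  have d5 : ∀ a b, (d * w a) ⬝ᵥ w b = (d * w b) ⬝ᵥ w a := by
    simp [w, dotProduct, Fin.sum_univ_five]; intros; ring
  let N : F₀ × F₀ → M5 F := fun a => vecMulVec u (d * w a) - vecMulVec (w a) (d * u) -
    (t * (d * w a) ⬝ᵥ w a) • vecMulVec u (d * u)
  have hm : ∀ a b, N a + N b + N a * N b = N (a + b) := fun a b => by
    simp only [N, mul_sub, sub_mul, vecMulVec_mul_vecMulVec, smul_mul_assoc, mul_smul_comm, d1, d2,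
      d3, d4, mul_add, add_vecMulVec, vecMulVec_add, vecMulVec_smul, add_dotProduct, dotProduct_add,
      d5 b a]
    match_scalars <;> first | ring1 | linear_combination ((d * w a) ⬝ᵥ w b) * t2
  have inj : ∀ a, N a = 0 ↔ a = 0 := fun a => ⟨fun h => by
    have a1 := congrFun (congrFun h 3) 2
    have a2 := congrFun (congrFun h 4) 2
    simp only [N, Matrix.sub_apply, Matrix.smul_apply, vecMulVec_apply] at a1 a2
    simp [u, w, (hd 2).2] at a1 a2
    exact Prod.ext a1 a2, by rintro rfl; simp [N, show w 0 = 0 by ext i; fin_cases i <;> simp [w]]⟩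
  rw [sq, ← Nat.card_prod]
  refine pu_of N hm inj (fun a => by ext <;> simp) fun a g hg => hM g (hg ▸ add_mem (one_mem (Rat F₀))
    fun i j => ?_) ?_
  · have b1 : ∀ i, u i ∈ F₀ := fun i => by fin_cases i <;> simp [u, hx, hy]
    have b2 : ∀ i, w a i ∈ F₀ := fun i => by fin_cases i <;> simp [w]
    exact sub_mem (sub_mem (mul_mem (b1 i) (mul_mem (h0 j) (b2 j))) (mul_mem (b2 i)
      (mul_mem (h0 j) (b1 j)))) (mul_mem (mul_mem ht (sum_mem fun k _ => mul_mem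
        (mul_mem (h0 k) (b2 k)) (b2 k))) (mul_mem (b1 i) (mul_mem (h0 j) (b1 j))))
  · have b1 : (1 + N a)ᵀ * diagonal d = diagonal d * (1 + N (-a)) := by
      have : w (-a) = -w a := by ext i; fin_cases i <;> simp [w]
      ext i j
      by_cases c : i = j <;> simp [N, this, vecMulVec_apply, c] <;> ring
    rw [hg, b1, mul_assoc, show (1 + N (-a)) * (1 + N a) = 1 + (N (-a) + N a + N (-a) * N a) by
      noncomm_ring, hm, neg_add_cancel, (inj 0).2 rfl, add_zero, mul_one]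

theorem pu_herm [Finite F] [Fact p.Prime] [CharP F p] (hσ : ∀ a, σ (σ a) = a)
    (h0 : ∀ c ∈ F₀, σ c ∈ F₀) {ω e : F} (hω : ω ∈ F₀) (hω' : σ ω ≠ ω) (he : e ∈ F₀)
    (he' : e * σ e = -1) (hM : ∀ g : G5 F, Ent F₀ g.val →
      g.valᵀ * diagonal 1 * g.val.map σ = diagonal 1 → g ∈ S5 F → g ∈ M) :
    ∃ n, 8 < n ∧ PU p n M := by
  let T : AddSubgroup F := F₀.toAddSubgroup ⊓ (σ.toAddMonoidHom + AddMonoidHom.id F).ker
  have hT : ∀ b : T, σ b = -b := fun b => eq_neg_of_add_eq_zero_left b.2.2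
  let u : V5 F := ![1, e, 0, 0, 0]
  let v : V5 F := ![0, 0, 1, e, 0]
  have d1 : (σ ∘ u) ⬝ᵥ u = 0 ∧ (σ ∘ u) ⬝ᵥ v = 0 ∧ (σ ∘ v) ⬝ᵥ u = 0 ∧ (σ ∘ v) ⬝ᵥ v = 0 := by
    simp [u, v, dotProduct, Fin.sum_univ_five, mul_comm (σ e), he']
  let N : F₀ × T × T → M5 F := fun a => (a.2.1 : F) • vecMulVec u (σ ∘ u) +
    (a.1 : F) • vecMulVec u (σ ∘ v) - σ a.1 • vecMulVec v (σ ∘ u) + (a.2.2 : F) • vecMulVec v (σ ∘ v)
  have h1 : ∀ a b, N a * N b = 0 := fun a b => by
    simp only [N, mul_sub, sub_mul, mul_add, add_mul, smul_mul_assoc, mul_smul_comm,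
      vecMulVec_mul_vecMulVec, d1]
    simp
  have h2 : ∀ a, (N a).map σ = -(N a)ᵀ := fun a => by
    ext i j
    simp [N, hT, hσ, vecMulVec_apply]; ring
  refine ⟨_, ?_, pu_of N (fun a b => ?_) (fun a => ⟨fun h => ?_, by rintro rfl; simp [N]⟩)
    (fun a => by ext <;> simp) fun a g hg => hM g (hg ▸ add_mem (one_mem (Rat F₀)) fun i j => ?_) ?_⟩
  · have : Nontrivial T := ⟨⟨ω - σ ω, F₀.sub_mem hω (h0 _ hω), by simp [hσ]⟩, 0, fun e =>
      hω' (sub_eq_zero.1 (congrArg Subtype.val e)).symm⟩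
    have a1 := Finite.one_lt_card (α := T)
    have := Fintype.ofFinite F₀
    have a2 : 2 < Nat.card F₀ := Nat.card_eq_fintype_card (α := F₀) ▸ Fintype.two_lt_card_iff.2
      ⟨0, 1, ⟨ω, hω⟩, by simp, fun e => hω' (by simp [← show 0 = ω from congrArg Subtype.val e]),
        fun e => hω' (by simp [← show 1 = ω from congrArg Subtype.val e])⟩
    rw [Nat.card_prod, Nat.card_prod]
    nlinarith [Nat.mul_le_mul a1 a1]
  · simp only [h1, N, Prod.fst_add, Prod.snd_add, AddMemClass.coe_add, map_add]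
    module
  · have a1 := congrFun (congrFun h 0) 2
    have a2 := congrFun (congrFun h 0) 0
    have a3 := congrFun (congrFun h 2) 2
    simp only [N, Matrix.sub_apply, Matrix.add_apply, Matrix.smul_apply, vecMulVec_apply] at a1 a2 a3
    simp [u, v] at a1 a2 a3
    exact Prod.ext a1 (Prod.ext a2 a3)
  · have b1 : ∀ i, u i ∈ F₀ := fun i => by fin_cases i <;> simp [u, he]
    have b2 : ∀ i, v i ∈ F₀ := fun i => by fin_cases i <;> simp [v, he]
    exact add_mem (sub_mem (add_mem (mul_mem a.2.1.2.1 (mul_mem (b1 i) (h0 _ (b1 j))))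
      (mul_mem a.1.2 (mul_mem (b1 i) (h0 _ (b2 j))))) (mul_mem (h0 _ a.1.2)
      (mul_mem (b2 i) (h0 _ (b1 j))))) (mul_mem a.2.2.2.1 (mul_mem (b2 i) (h0 _ (b2 j))))
  · rw [hg, Matrix.map_add _ (map_add σ), h2, Matrix.map_one _ (map_zero σ) (map_one σ)]
    simp [mul_add, add_mul, ← transpose_mul, h1]

end H53.U5
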