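import Cfsg.Agent.H53.U5C
import Cfsg.Agent.H27.Zsigmondy

/-! Row S5795: the monomial group, the cyclic torus and the normaliser of `5^(1+2)`. -/

set_option autoImplicit false
set_option linter.unusedSectionVars false

namespace H53.U5

open Matrix hiding mul_inv_rev
open Cfsg Cfsg.Geo H25 H53.C6 H13.C6 Equiv Module H59
open H19 (Ent)
open scoped commutatorElement

universe u

variable {F : Type u} [Field F] [Fintype F] {H M R : Subgroup (G5 F)} {B P g k : G5 F}
  {F₀ F₁ : Subfield F} {q N : ℕ} {K L : Subalgebra F (M5 F)} {ω : Fˣ}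

/-- `SU₅(q)` -/
abbrev G0 (F : Type u) [Field F] (q : ℕ) : Subgroup (G5 F) := GU 5 F q ⊓ S5 F

theorem fr_one (hF : Fintype.card F = q ^ 2) : Fr (frob hF) (hermForm 5 F q) 1 1 := fun x y => by
  simp [hermForm, formOfGram, one_apply, frob_apply]

theorem cm_G0 (hF : Fintype.card F = q ^ 2) (h : Fr (frob hF) (hermForm 5 F q) 1 B) :
    cm B (G0 F q) = G0 F q := by
  have hB : B ∈ GU 5 F q := fun x y => (h x y).trans ((fr_one hF x y).symm.trans (by simp))
  rw [cm_inf, cm_S5]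
  congr 1
  ext g
  rw [mem_cm, mul_mem_cancel_right (inv_mem hB), mul_mem_cancel_left hB]

theorem mem_GU : g ∈ GU 5 F q ↔ IsIso (hermForm 5 F q) g := Iff.rfl

theorem mono_mem (hF : Fintype.card F = q ^ 2) {v : Fin 5 → Fˣ} {τ : Perm (Fin 5)}
    (h : ∀ i, v i * frob hF (v i) = 1) (h1 : ∏ i, v i = 1) (h2 : τ.sign = 1) :
    dg v * pm τ ∈ Mono F ⊓ G0 F q := by
  have := mem_GU.2 ((fr_one hF).iso (mono_iso τ h))
  rw [one_mul, inv_one, mul_one] at this
  exact ⟨⟨v, τ, rfl⟩, this, mono_det h1 h2⟩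

theorem exists_ne (hF : Fintype.card F = q ^ 2) : ∃ ω, frob hF ω ≠ ω := by
  by_contra! c; exact frob_ne_id hF (RingHom.ext c)

theorem full3 (hF : Fintype.card F = q ^ 2) (h : Mono F ⊓ G0 F q ≤ M) : Full ⊤ M :=
  (exists_ne hF).elim fun _ hω => full_mon (frob_frob hF) (by simp) trivial hω
    fun _ _ a b c => h (mono_mem hF (fun i => (a i).2) b c)

theorem card3 (hF : Fintype.card F = q ^ 2) :
    (q + 1) ^ 4 * 15 ∣ Nat.card ↥(Mono F ⊓ G0 F q) := by
  obtain ⟨π, hπ⟩ := hom3 (B := 1) (H := Mono F ⊓ G0 F q) fun g hg => by simpa using hg.1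
  have k : ∀ τ : Perm (Fin 5), τ.sign = 1 → orderOf τ ∣ Nat.card π.range := fun τ h =>
    Subgroup.orderOf_dvd_natCard π.range
      ⟨⟨_, mono_mem hF (v := 1) (by simp) (by simp) h⟩, (hπ _ _).2 ⟨1, by simp⟩⟩
  have := Fact.mk Nat.prime_five
  rw [← π.ker.card_mul_index, Subgroup.index_ker]
  refine mul_dvd_mul ?_ (Nat.Coprime.mul_dvd_of_dvd_of_dvd (m := 3) (n := 5) (by decide) ?_ ?_)
  · let v : (Fin 4 → normOne F q) →* Fin 5 → normOne F q := MonoidHom.mk'
      (fun a => Fin.cons (∏ i, a i)⁻¹ a) fun a b => funext fun i => by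
        refine Fin.cases ?_ (fun i => ?_) i <;> simp [Finset.prod_mul_distrib, mul_comm]
    let θ := dg.comp (((normOne F q).subtype.compLeft _).comp v)
    have m : ∀ a, θ a ∈ Mono F ⊓ G0 F q := fun a => by
      have := mono_mem hF (v := fun i => v a i) (τ := 1)
        (fun i => (mul_comm _ _).trans ((mem_normOne' hF).1 (v a i).2))
        (by simp [v, Fin.prod_univ_succ (n := 4)]) (by simp)
      rwa [map_one pm, mul_one] at this
    have := Subgroup.card_dvd_of_injective ((θ.codRestrict _ m).codRestrict π.ker fun a =>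
      (hπ _ 1).2 ⟨fun i => v a i, by simp; rfl⟩) fun a b e => funext fun i => Subtype.ext
        (congrFun (dg_inj (congrArg (fun x => x.1.1) e)) i.succ)
    simpa [Nat.card_pi, card_normOne hF] using this
  · have := k (swap 0 1 * swap 1 2) (by decide)
    rwa [orderOf_eq_prime (p := 3) (by decide) (by decide)] at this
  · have := k (finRotate 5) (by decide)
    rwa [orderOf_eq_prime (p := 5) (by decide) (by decide)] at this

/-! ### The cyclic torus -/

theorem le_of_mem_field (hK : IsFieldSubalgebra 5 K) (hg : g.val ∈ K) (hg' : g ∉ Z5 F)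
    (hA : g.val ∈ L) : K ≤ L := by
  let _ : Field K := (H19.isField_of_subalgebra hK.comm hK.inv).toField
  rcases (Subalgebra.isSimpleOrder_of_finrank_prime F K
    (by rw [hK.finrank_eq]; decide)).eq_bot_or_eq_top (L.comap K.val) with h | h
  · obtain ⟨c, hc⟩ := Algebra.mem_bot.1 (h.le (show (⟨g, hg⟩ : K) ∈ _ from hA))
    exact (hg' (mem_scalars_of_eq_smul (c := c) (by
      simpa [Algebra.algebraMap_eq_smul_one] using congrArg Subtype.val hc.symm))).elim
  · exact fun x hx => show (⟨x, hx⟩ : K) ∈ L.comap K.val from h ▸ Algebra.mem_top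

/-- an element of order `(q⁵ + 1) / (q + 1)` -/
structure Sing (q : ℕ) (K : Subalgebra F (M5 F)) (k : G5 F) : Prop where
  field : IsFieldSubalgebra 5 K
  mem : k.val ∈ K
  su : k ∈ G0 F q
  ord : orderOf k + q ^ 3 + q = q ^ 4 + q ^ 2 + 1
  le : 3 ≤ q

theorem exists_sing (hF : Fintype.card F = q ^ 2) (hq : 3 ≤ q) (hK : IsFieldSubalgebra 5 K)
    (hc : IsAdjointClosedFor (hermForm 5 F q) K) : ∃ k, Sing q K k := by
  obtain ⟨N, hN⟩ : ∃ N, N + q ^ 3 + q = q ^ 4 + q ^ 2 + 1 :=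
    ⟨q ^ 4 + q ^ 2 + 1 - (q ^ 3 + q), by
      rw [add_assoc, Nat.sub_add_cancel (by nlinarith [Nat.pow_le_pow_left hq 3])]⟩
  let _ : Field K := (H19.isField_of_subalgebra hK.comm hK.inv).toField
  have := Fintype.ofFinite K
  classical
  obtain ⟨a, ha⟩ := IsCyclic.exists_ofOrder_eq_natCard (α := Kˣ)
  have h1 : 1 ≤ q ^ 2 := by nlinarith
  rw [Nat.card_eq_fintype_card, Fintype.card_units, Module.card_eq_pow_finrank (K := F),
    hK.finrank_eq, show Fintype.card F ^ 5 - 1 =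
      N * ((Fintype.card F - 1) * (q ^ 4 + q ^ 3 + q ^ 2 + q + 1)) by
    rw [hF]
    zify [h1, Nat.one_le_pow 5 _ h1] at hN ⊢
    linear_combination (-(q ^ 2 - 1) * (q ^ 4 + q ^ 3 + q ^ 2 + q + 1) : ℤ) * hN] at ha
  generalize q ^ 4 + q ^ 3 + q ^ 2 + q + 1 = e at ha
  have h0 : (Fintype.card F - 1) * e ≠ 0 := fun h0 => by
    rw [h0, mul_zero] at ha; exact (orderOf_pos a).ne' ha
  let ι : Kˣ →* G5 F := Units.map K.val.toMonoidHom
  have a3 : orderOf (ι (a ^ ((Fintype.card F - 1) * e))) = N := by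
    rw [orderOf_injective ι (Units.map_injective Subtype.val_injective), orderOf_pow' _ h0, ha,
      Nat.gcd_mul_left_left, Nat.mul_div_cancel _ (Nat.pos_of_ne_zero h0)]
  have a4 : ∀ b, (ι b).val ∈ K := fun b => b.val.2
  refine ⟨_, hK, a4 _, ⟨(isSes_hermForm hF 5).isIso_of_adj ?_, mem_specialLinear.2 ?_⟩, a3 ▸ hN, hq⟩
  · rw [adj_eq_pow hF (isSes_hermForm hF 5) (frob_ne_id hF) hK hc (a4 _), ← pow_succ,
      ← Units.val_pow_eq_pow_val,
      orderOf_dvd_iff_pow_eq_one.1 ⟨q + 1, by rw [a3]; nlinarith⟩, Units.val_one]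
  · rw [map_pow, Units.val_pow_eq_pow_val, det_pow, pow_mul,
      FiniteField.pow_card_sub_one_eq_one (ι a).val.det (ι a).det_ne_zero, one_pow]

theorem Sing.big (h : Sing q K k) {n : ℕ} (h1 : orderOf k ∣ n) : ¬ n ∣ 2209680000 := fun h2 => by
  have a := h.ord
  have b := h1.trans h2
  have c : q < 220 := by
    by_contra! c
    nlinarith [Nat.le_of_dvd (by decide) b, Nat.pow_le_pow_left c 3, Nat.mul_le_mul_left (q ^ 3) c]
  rw [show orderOf k = q ^ 4 + q ^ 2 + 1 - q - q ^ 3 by omega] at b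
  exact (by decide +kernel : ∀ q < 220, 3 ≤ q → ¬ q ^ 4 + q ^ 2 + 1 - q - q ^ 3 ∣ 2209680000)
    q c h.le b

theorem Sing.not_scalar (h : Sing q K k) : k ^ 120 ∉ Z5 F := fun e => h.big (n := 120 * 5) (by
  obtain ⟨c, hc⟩ := mem_scalars_iff'.1 e
  have : c ^ 5 = 1 := Units.ext (by
    simpa [hc, coe_sc] using mem_specialLinear.1 (pow_mem h.su.2 120))
  rw [orderOf_dvd_iff_pow_eq_one, pow_mul, hc, ← map_pow, this, map_one]) (by decide)

theorem Sing.norm (h : Sing q K k) : k ∈ subalgebraNormalizer K := by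
  refine (Nz.le_normalizer (H := Subgroup.zpowers k) fun _ ⟨n, e⟩ a ha => ?_) (Subgroup.mem_zpowers k)
  rw [← e, (cj_eq_self_iff _ _).2 (Commute.units_zpow_left (h.field.comm _ h.mem _ ha) n)]
  exact ha

theorem Sing.irr (h : Sing q K k) (hk : k ∈ H) : Irr H := fun W hW => by
  refine (eq_or_ne W ⊥).imp_right fun h0 => top_unique fun w _ => ?_
  obtain ⟨v, hv, hv0⟩ := Submodule.exists_mem_ne_zero_of_ne_bot h0
  obtain ⟨l, hl, rfl⟩ := surj_of_field (by simpa using h.field) hv0 w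
  exact alg_induction (N := H) (p := fun a => a *ᵥ v ∈ W) (fun g hg => hW g hg v hv) (by simp)
    (fun a b ha hb => add_mulVec a b v ▸ add_mem ha hb)
    (fun c a ha => smul_mulVec c a v ▸ W.smul_mem c ha)
    (le_of_mem_field h.field h.mem (fun h1 => h.not_scalar (pow_mem h1 _)) (coe_mem_alg hk) hl)

theorem Sing.not_mono (h : Sing q K k) (hk : k ∈ H) : ¬ cm B H ≤ Mono F := fun e => by
  obtain ⟨π, hπ⟩ := hom3 e
  obtain ⟨v, hv⟩ := (hπ (⟨k, hk⟩ ^ 120) 1).1 (by rw [map_pow]; exact pow_card_eq_one)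
  refine h.not_scalar (scalar_of_det h.field (K.pow_mem h.mem 120) (c := v 0) ?_)
  have : (k ^ 120).val - (v 0 : F) • 1 = B.val * ((dg v).val - (v 0 : F) • 1) * B⁻¹.val := by
    rw [show k ^ 120 = _ from hv]; simp [mul_sub, sub_mul]
  rw [this, det_units_conj]
  exact det_eq_zero_of_row_eq_zero 0 fun j => by fin_cases j <;> simp [dg_val]

theorem Sing.eq_field (h : Sing q K k) (hL : IsFieldSubalgebra 5 L)
    (hk : k ∈ subalgebraNormalizer L) : K = L :=
  Subalgebra.eq_of_le_of_finrank_eq (le_of_mem_field h.field (K.pow_mem h.mem 5) (fun h1 =>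
    h.not_scalar (by simpa [← pow_mul] using pow_mem h1 24)) (pow_mem_field hL hk))
    (h.field.finrank_eq.trans hL.finrank_eq.symm)

theorem Sing.not_sub (h : Sing q K k) (hF : Fintype.card F = q ^ 2) {r : ℕ} (hr : r.Prime)
    (hc : Fintype.card F = Nat.card F₁ ^ r) : k ∉ subfieldSubgroup F₁ P := fun hk => by
  obtain ⟨c, h0, h5, a⟩ := exists_rat hk h.su.2
  obtain ⟨y, hy⟩ := H19.mem_range_map_of_ent (F₀ := F₁) (g := (P⁻¹ * k * P⁻¹⁻¹) ^ 5) (by
    simpa [smul_pow, h0, H19.cj_coe] using rat_smul (inv_mem h5) ((Rat F₁).pow_mem a 5))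
  have a1 : orderOf k ∣ 5 * Nat.card (GL (Fin 5) F₁) := by
    rw [orderOf_dvd_iff_pow_eq_one, ← conj_eq_one_iff (a := P⁻¹), ← conj_pow, pow_mul, ← hy,
      ← map_pow, pow_card_eq_one', map_one]
  obtain ⟨p, f, hp, -, f0, rfl⟩ := exists_char_pow hF
  obtain ⟨e, -, he⟩ := (Nat.dvd_prime_pow hp).1 (show Nat.card F₁ ∣ p ^ (f * 2) by
    rw [pow_mul, ← hF, hc]; exact dvd_pow_self _ hr.ne_zero)
  have a2 : f * 2 = e * r := Nat.pow_right_injective hp.two_le (by
    simp only [pow_mul, ← he, ← hF, hc])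
  have a3 : 0 < e ∧ e ≤ f := by constructor <;> nlinarith [hr.two_le]
  obtain ⟨l, l1, l2, l3⟩ := H27.zsigmondy p (f * 10) hp.one_lt (by omega) (by omega) (by omega)
  have a4 : ∀ n, 1 ≤ p ^ n := fun n => Nat.one_le_pow _ _ hp.pos
  have a5 : ¬ l ∣ p := fun c => l1.not_dvd_one
    ((Nat.dvd_sub_iff_right (a4 _) (c.trans (dvd_pow_self p (by omega)))).1 l2)
  have a6 : l ∣ orderOf k := by
    have : (p ^ (f * 10) - 1) * (p ^ f - 1) = orderOf k * ((p ^ (f * 5) - 1) * (p ^ (f * 2) - 1)) := by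
      have := h.ord
      zify [a4] at this ⊢
      simp only [pow_mul]
      linear_combination (-((p ^ f) ^ 5 - 1) * ((p ^ f) ^ 2 - 1) : ℤ) * this
    refine (l1.dvd_mul.1 (this ▸ l2.mul_right _)).resolve_right fun c => ?_
    exact (l1.dvd_mul.1 c).elim (l3 _ (by omega) (by omega)) (l3 _ (by omega) (by omega))
  have := Fintype.ofFinite F₁
  rw [card_GL_field, ← Nat.card_eq_fintype_card, he] at a1
  rcases l1.dvd_mul.1 (a6.trans a1) with c | c
  · obtain rfl := (Nat.prime_dvd_prime_iff_eq l1 Nat.prime_five).1 c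
    exact l3 4 (by decide) (by omega) ((Nat.modEq_iff_dvd' (a4 4)).1
      (Nat.ModEq.pow_totient ((Nat.Prime.coprime_iff_not_dvd l1).2 a5).symm).symm)
  · obtain ⟨i, -, c⟩ := (Prime.dvd_finsetProd_iff l1.prime _).1 c
    rw [show (p ^ e) ^ 5 = (p ^ e) ^ (i : ℕ) * p ^ (e * (5 - i)) by
      rw [pow_mul, ← pow_add]; congr 1; omega, ← Nat.mul_sub_one] at c
    exact (l1.dvd_mul.1 c).elim (fun c => a5 (l1.dvd_of_dvd_pow (l1.dvd_of_dvd_pow c)))
      (l3 _ (Nat.mul_pos a3.1 (by omega)) (by nlinarith [Nat.sub_le 5 i]))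

end H53.U5
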