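import Cfsg.Agent.H53.U5D

/-! Row S5795: the normaliser of `5^(1+2)` in `SU₅(q)`. -/

set_option autoImplicit false
set_option linter.unusedSectionVars false

namespace H53.U5

open Matrix hiding mul_inv_rev
open Cfsg Cfsg.Geo H25 H53.C6 H13.C6 Equiv Module H59
open H19 (Ent)
open scoped commutatorElement

universe u

variable {F : Type u} [Field F] [Fintype F] {H M R : Subgroup (G5 F)} {B P g : G5 F}
  {F₁ : Subfield F} {q : ℕ} {ω : Fˣ}

theorem std7 {r : ℕ} [NeZero r] [Fact r.Prime] (h : orderOf ω = r)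
    {R : Subgroup (GL (ZMod r) F)} (a1 : Spans R) (a2 : ∀ x ∈ R, ∀ y ∈ R, ⁅x, y⁆ ∈ scalars _ F)
    (a3 : ∀ x ∈ R, x ^ r = 1) : ∃ B, R.comap (MulAut.conj B).toMonoidHom = R6 r ω := by
  obtain ⟨b, hb, a, ha, hab⟩ : ∃ b ∈ R, ∃ a ∈ R, b * a ≠ a * b := by
    by_contra! c
    have h3 := alg_eq_bot_iff.2 fun b hb => (a1.exists_smul_one (b := b.val) fun a ha => by
      rw [← Units.val_mul, c b hb a ha, Units.val_mul]).elim fun _ => mem_scalars_of_eq_smul
    rw [spans_iff.1 a1] at h3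
    obtain ⟨c, hc⟩ := mem_bot_iff_smul.1 (h3 ▸ Algebra.mem_top : (xx F r).val ∈ _)
    simpa [xx, pm_apply] using congrFun (congrFun hc 1) 0
  obtain ⟨c, hc⟩ := mem_scalars_iff'.1 (a2 b hb a ha)
  obtain ⟨k, rfl⟩ := exists_w h (c := c) (sc_pow_eq_one (hc ▸ a3 ⁅b, a⁆
    (mul_mem (mul_mem (mul_mem hb ha) (inv_mem hb)) (inv_mem ha))))
  have k0 : k ≠ 0 := by
    rintro rfl
    exact hab (commutatorElement_eq_one_iff_mul_comm.1 (by simpa using hc))
  have h3 := conj_pow_sc (a := a) (b := b) (c := w ω k)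
    (by rw [← hc, commutatorElement_def, inv_mul_cancel_right]) (-k⁻¹).val
  rw [w_pow h, ZMod.natCast_zmod_val, neg_mul, inv_mul_cancel₀ k0, w_neg h, w_one h] at h3
  obtain ⟨B, b1, b2⟩ := exists_std h (a3 a ha) (a3 _ (pow_mem hb _)) h3
  exact ⟨B, eq_R6 h
    (show B * _ * B⁻¹ ∈ R from b2 ▸ pow_mem hb _) (show B * _ * B⁻¹ ∈ R from b1 ▸ ha)
    (fun x hx y hy => by
      have h5 := a2 _ hx _ hy
      rw [← map_commutatorElement] at h5
      have h6 : B * ⁅x, y⁆ * B⁻¹ * B = B * (B * ⁅x, y⁆ * B⁻¹) := comm_of_mem_scalars h5 B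
      rw [inv_mul_cancel_right, mul_right_inj] at h6
      exact h6 ▸ h5)
    fun x hx => (MulAut.conj B).injective (by rw [map_pow, map_one]; exact a3 _ hx)⟩

/-- the normaliser of the model group in `SL₅` -/
abbrev N6 (ω : Fˣ) : Subgroup (GL (ZMod 5) F) :=
  subgroupNormalizer (R6 5 ω) ⊓ specialLinear (ZMod 5) F

theorem xx_mem : xx F 5 ∈ N6 ω := ⟨Subgroup.le_normalizer xx_mem_R6, mem_specialLinear.2 (by
  rw [xx, det_pm, show Perm.sign (af (1 : (ZMod 5)ˣ) 1) = 1 by decide]; simp)⟩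

theorem dp_mem (h : orderOf ω = 5) : dp 5 ω 1 ∈ N6 ω :=
  ⟨Subgroup.le_normalizer dp_mem_R6, det_dp h sum_pow5.1⟩

theorem tt_mem (h : orderOf ω = 5) : tt F 5 ∈ N6 ω := ⟨pm_mem_N6 h _ _, mem_specialLinear.2 (by
  rw [tt, hh, det_pm, show Perm.sign (af (-1 : (ZMod 5)ˣ) 0) = 1 by decide]; simp)⟩

theorem tt_not_mem : tt F 5 ∉ scalars (ZMod 5) F := fun h => by
  obtain ⟨c, hc⟩ := (mem_scalars_iff _).1 h
  simpa +decide [tt_apply] using congrFun (congrFun hc 1) (-1)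

theorem perm5 {σ τ ρ : Perm (Fin 5)} (h1 : σ ^ 5 = 1) (h2 : Commute τ σ) (h3 : Commute ρ σ)
    (h4 : ρ * τ * ρ⁻¹ = σ ^ 2 * τ) : σ = 1 := by
  by_contra c
  have k := (by decide +kernel : ∀ σ : Perm (Fin 5), σ ^ 5 = 1 → σ ≠ 1 →
    ∀ i, ∃ k : Fin 5, (σ ^ k.val) 0 = i) σ h1 c
  obtain ⟨n, hn⟩ := k (τ 0)
  obtain rfl : σ ^ n.val = τ := Equiv.ext fun i => by
    obtain ⟨m, rfl⟩ := k i
    rw [← Perm.mul_apply τ, (h2.pow_right _).eq, Perm.mul_apply, ← hn, ← Perm.mul_apply,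
      ← Perm.mul_apply, pow_mul_comm]
  rw [(h3.pow_right _).eq, mul_inv_cancel_right, right_eq_mul] at h4
  exact c (by simpa using pow_gcd_eq_one.2 ⟨h1, h4⟩)

theorem six (h : orderOf ω = 5) (π : N6 ω →* Perm (Fin 5))
    (h1 : ∀ g, g.1 ∈ scalars (ZMod 5) F → π g = 1)
    (h2 : ∀ a b, π a = 1 → π b = 1 → a.1 * b.1 = b.1 * a.1) : False := by
  have s : ∀ i, sc _ (w ω i) ∈ N6 ω := fun i => ⟨sc_mem_N6 _, show GeneralLinearGroup.det _ = 1 by
    rw [det_sc, w_pow h, ZMod.natCast_self, zero_mul, w_zero]⟩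
  let x : N6 ω := ⟨_, xx_mem⟩
  let d : N6 ω := ⟨_, dp_mem h⟩
  let P : N6 ω := ⟨_, p_mem_N6 h, det_dp h sum_pow5.2⟩
  let z : N6 ω := ⟨_, s (-1)⟩
  have e1 : x * d * x⁻¹ = z * d := Subtype.ext (by
    simpa [x, d, z, w_neg h, w_one h] using xx_conj_dp h)
  have e2 : P * x * P⁻¹ = z * d ^ 2 * x := Subtype.ext (by
    change dp 5 ω 2 * xx F 5 * (dp 5 ω 2)⁻¹ = sc _ (w ω (-1)) * dp 5 ω 1 ^ 2 * xx F 5
    rw [dp_pow h, ← dg_const, ← map_mul, xx, dp]
    refine Units.ext ?_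
    ext i j
    rw [dg_conj_apply, dg_pm_apply, pm_apply]
    split_ifs with c
    · rw [mul_one, ← Units.val_inv_eq_inv_val, ← Units.val_mul, ← w_sub h, Pi.mul_apply,
        ← w_add h, c]
      congr 2; simp; ring
    · simp)
  have e3 : P * d = d * P := Subtype.ext (by
    change dg _ * dg _ = dg _ * dg _
    rw [← map_mul, mul_comm, map_mul])
  have e4 : d ^ 5 = 1 := Subtype.ext (by
    change dp 5 ω 1 ^ 5 = 1
    rw [dp_pow h, ZMod.natCast_self]; simp [← Pi.one_def])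
  have hz : π z = 1 := h1 z (sc_mem _)
  have hd : π d = 1 := perm5 (τ := π x) (ρ := π P) (by rw [← map_pow, e4, map_one])
    (by simpa [hz, mul_inv_eq_iff_eq_mul, commute_iff_eq] using congrArg π e1)
    (by simpa [commute_iff_eq] using congrArg π e3) (by simpa [hz] using congrArg π e2)
  let c := GeneralLinearGroup.det (Ph 5 ω) * (Units.mk0 _ (cast_ne_zero h) ^ 3)⁻¹
  let f : N6 ω := ⟨sc _ c * Ph 5 ω, mul_mem (sc_mem_N6 _) (ph_mem_N6 h), by
    have := congrArg GeneralLinearGroup.det (Ph_sq h)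
    rw [map_mul, map_mul, det_sc, show GeneralLinearGroup.det (tt F 5) = 1 from (tt_mem h).2,
      mul_one, ← sq] at this
    change GeneralLinearGroup.det _ = 1
    rw [map_mul, det_sc, mul_pow, mul_right_comm, ← pow_succ, show 5 + 1 = 2 * 3 from rfl, pow_mul,
      this, inv_pow, ← pow_mul, ← pow_mul, mul_inv_cancel]⟩
  have e5 : x * f * d = f := Subtype.ext (by
    change xx F 5 * (sc _ c * Ph 5 ω) * dp 5 ω 1 = sc _ c * Ph 5 ω
    rw [← mul_assoc, ← sc_comm, mul_assoc, mul_assoc, Ph_dp h, mul_inv_cancel_left])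
  have := congrArg Subtype.val e1
  rw [Subgroup.coe_mul, Subgroup.coe_mul, h2 x d (by simpa [hd] using congrArg π e5) hd] at this
  have : sc (ZMod 5) (w ω (-1 : ZMod 5)) = 1 :=
    congrArg Subtype.val (show z = 1 by simpa using this)
  rw [← dg_const, ← map_one dg] at this
  exact absurd ((w_eq_one_iff h).1 (congrFun (dg_inj this) 0)) (by decide)

theorem comm_dg' (B : G5 F) (v w : Fin 5 → Fˣ) :
    Commute (B * (dg v * pm 1) * B⁻¹) (B * (dg w * pm 1) * B⁻¹) := by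
  rw [commute_iff_eq, conj_mul, conj_mul, map_one, mul_one, mul_one, ← map_mul, mul_comm v, map_mul]

theorem not_mono6 (h : orderOf ω = 5) (B : G5 F) : ¬ cm B (N6 ω) ≤ Mono F := fun e => by
  obtain ⟨π, hπ⟩ := hom3 e
  refine six h π (fun g hg => ?_) fun a b ha hb => ?_
  · obtain ⟨c, hc⟩ := mem_scalars_iff'.1 hg
    exact (hπ g 1).2 ⟨fun _ => c, by
      rw [dg_const, map_one, mul_one, ← sc_comm, mul_inv_cancel_right]; exact hc⟩
  · obtain ⟨v, hv⟩ := (hπ a 1).1 ha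
    obtain ⟨v', hv'⟩ := (hπ b 1).1 hb
    rw [hv, hv']
    exact comm_dg' B v v'

theorem mem_of_comm {a b : G5 F} (ha : a ∈ subfieldSubgroup F₁ P) (hb : b ∈ subfieldSubgroup F₁ P)
    {ζ : Fˣ} (h : a * b * a⁻¹ = sc _ ζ * b) : (ζ : F) ∈ F₁ := by
  obtain ⟨c, c0, hc⟩ := H19.mem_subfieldSubgroup_iff.1 ha
  obtain ⟨d, d0, hd⟩ := H19.mem_subfieldSubgroup_iff.1 hb
  have h1 := Ent.mul hc hd
  have h2 := Ent.mul hd hc
  rw [smul_mul_smul_comm, ← map_mul, ← Units.val_mul] at h1 h2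
  rw [mul_inv_eq_iff_eq_mul.1 h, mul_assoc, Units.val_mul, coe_sc, smul_mul_assoc, one_mul, map_smul,
    smul_comm, mul_comm c] at h1
  obtain ⟨i, j, e⟩ : ∃ i j, ((d * c) • H19.cj P⁻¹ (b * a).val) i j ≠ 0 := by
    by_contra! e
    have := (Matrix.ext e : _ = (0 : M5 F))
    rw [smul_eq_zero, H19.cj_coe] at this
    exact this.elim (mul_ne_zero d0 c0) (Units.ne_zero _)
  exact mul_div_cancel_right₀ (ζ : F) e ▸ div_mem (h1 i j) (h2 i j)

/-- the extraspecial group -/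
structure Ext (R : Subgroup (G5 F)) : Prop where
  spans : Spans R
  comm : ∀ x ∈ R, ∀ y ∈ R, ⁅x, y⁆ ∈ Z5 F
  pow : ∀ x ∈ R, x ^ 5 = 1
  card : Nat.card R = 125

theorem ext_of (h : IsSymplecticTypeGroup 5 R) (ha : ActsAbsolutelyIrreducibly (matrixSet R))
    (hc : Nat.card R = 125) (hz : Nat.card (Subgroup.center R) = 5) : Ext R := by
  obtain ⟨a1, a2, -⟩ := sympType_struct h ha (Or.inl ⟨by decide, hz⟩)
  refine ⟨a1, a2, fun x hx => ?_, hc⟩
  have := Monoid.pow_exponent_eq_one (⟨x, hx⟩ : R)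
  rw [h.exponent_eq] at this
  exact congrArg Subtype.val this

theorem Ext.std (hR : Ext R) (h : orderOf ω = 5) :
    ∃ B, cm B R = R6 5 ω ∧ cm B (subgroupNormalizer R ⊓ S5 F) = N6 ω := by
  have := Fact.mk Nat.prime_five
  obtain ⟨B, hB⟩ : ∃ B, cm B R = R6 5 ω := std7 (r := 5) h hR.spans hR.comm hR.pow
  refine ⟨B, hB, ?_⟩
  rw [cm_inf, cm_S5, cm, subgroupNormalizer,
    Subgroup.comap_normalizer_eq_of_surjective _ (MulAut.conj B).surjective]
  exact congrArg (fun X => subgroupNormalizer X ⊓ _) hB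

theorem norm_eq (hF : Fintype.card F = q ^ 2) (h5 : 5 ∣ q + 1) (hR : Spans R)
    (hU : R ≤ GU 5 F q) : subgroupNormalizer R ⊓ G0 F q = subgroupNormalizer R ⊓ S5 F := by
  have hf := isSes_hermForm hF 5
  refine le_antisymm (inf_le_inf_left _ inf_le_right) fun g hg => ⟨hg.1, hf.isIso_of_adj ?_, hg.2⟩
  obtain ⟨c, hc⟩ := hR.exists_smul_one (b := adj (frob hF) (hermForm 5 F q) g * g) fun x hx => by
    have h1 := hf.adj_of_iso (hU (inv_mem ((Subgroup.mem_normalizer_iff.1 hg.1 x).1 hx)))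
    have h2 := hf.adj_of_iso (hU (inv_mem hx))
    rw [inv_inv] at h1 h2
    rw [← mul_assoc, ← h2, ← hf.adj_mul, h2, mul_assoc, ← Units.val_mul, ← Units.val_mul,
      ← inv_mul_cancel_right (g * x) g, Units.val_mul (_ * g⁻¹), ← h1, ← mul_assoc, ← hf.adj_mul,
      ← Units.val_mul]
    simp [mul_assoc]
  have h1 : c ^ 5 = 1 := by
    have := congrArg det hc
    rw [det_mul, adj, ← RingHom.mapMatrix_apply, ← RingHom.map_det, det_mul, det_mul, det_transpose,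
      mem_specialLinear.1 hg.2, det_nonsing_inv, Ring.inverse_eq_inv', mul_one, mul_one,
      inv_mul_cancel₀ hf.det_gram_ne_zero] at this
    simpa using this.symm
  have h2 : c ^ q = c := by
    have := congrArg (adj (frob hF) (hermForm 5 F q)) hc
    rw [hf.adj_mul, hf.adj_adj, hc, hf.adj_smul, hf.adj_one] at this
    simpa [frob_apply] using (congrFun (congrFun this 0) 0).symm
  obtain ⟨m, hm⟩ := h5
  have h3 : c ^ 2 = 1 := by
    rw [← one_pow m, ← h1, ← pow_mul, ← hm, pow_succ c q, h2, sq]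
  rw [hc, show c = 1 by simpa using pow_gcd_eq_one.2 ⟨h1, h3⟩, one_smul]

end H53.U5
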