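import Cfsg.Agent.H53.U5E
import Cfsg.Agent.H62.UPair
import Cfsg.Agent.H62.URatMat
import Cfsg.Agent.S5796

/-! Row S5795 from the list of the maximal subgroups of `SU₅(q)`. -/

set_option autoImplicit false
set_option linter.unusedSectionVars false

namespace H53.U5

open Matrix hiding mul_inv_rev
open Cfsg Cfsg.Geo H25 H53.C6 H13.C6 Equiv Module H59
open H19 (Ent)

universe u

/-- the text of S5797 -/
def T5797 : Prop := ∀ {F : Type u} [Field F] [Fintype F] (q : ℕ), Fintype.card F = q ^ 2 →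
  ∀ H : Subgroup (G5 F), IsMaximalIn (G0 F q) H → InUnitaryResidualClass H →
    ∃ P : Subgroup (G5 F), IsResidualCore H P ∧ q.Prime ∧
    ((Nonempty ((P ⧸ (Z5 F).subgroupOf P) ≃* ProjectiveSpecialLinearGroup (Fin 2) (ZMod 11)) ∧
        (q % 11 = 2 ∨ q % 11 = 6 ∨ q % 11 = 7 ∨ q % 11 = 8 ∨ q % 11 = 10)) ∨
     ((∃ (K : Type) (_ : Field K) (_ : Fintype K), Fintype.card K = 4 ∧
        Nonempty ((P ⧸ (Z5 F).subgroupOf P) ≃* PSU 4 K 2)) ∧ q % 6 = 5))

variable {F : Type u} [Field F] [Fintype F] {H M R : Subgroup (G5 F)} {B P : G5 F}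
  {F₀ F₁ : Subfield F} {q : ℕ} {K : Subalgebra F (M5 F)}

/-- `q²` is not a power with an odd prime exponent -/
def Small (q : ℕ) : Prop := ∀ m r : ℕ, r.Prime → Odd r → q ^ 2 ≠ m ^ r

theorem small_of {p : ℕ} (hp : p.Prime) (h : q = p ∨ q = p ^ 2) : Small q := fun m r hr ho e => by
  have k : ∀ j, p ^ 2 ^ j ≠ m ^ r := fun j e => by
    obtain ⟨k, -, rfl⟩ := (Nat.dvd_prime_pow hp).1 (e ▸ dvd_pow_self m hr.ne_zero)
    rw [← pow_mul] at e
    exact ho.not_two_dvd_nat ((Nat.prime_dvd_prime_iff_eq hr Nat.prime_two).1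
      (hr.dvd_of_dvd_pow (Nat.pow_right_injective hp.two_le e ▸ dvd_mul_left r k)) ▸ dvd_rfl)
  rcases h with rfl | rfl
  exacts [k 1 e, k 2 (by rw [← e, ← pow_mul]; rfl)]

/-- the classes of maximal subgroups -/
inductive Cls (q : ℕ) (H : Subgroup (G5 F)) : Prop
  | c1 (h : ¬ Irr H)
  | c3 (B : G5 F) (h : cm B H = Mono F ⊓ G0 F q)
  | c4 (K : Subalgebra F (M5 F)) (hK : IsFieldSubalgebra 5 K)
      (h : H = subalgebraNormalizer K ⊓ G0 F q)
  | c5 (F₁ : Subfield F) (r : ℕ) (P : G5 F) (hr : r.Prime) (hc : Fintype.card F = Nat.card F₁ ^ r)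
      (h : H = subfieldSubgroup F₁ P ⊓ G0 F q)
  | c7 (h5 : 5 ∣ q + 1) (hq : Small q) (R : Subgroup (G5 F)) (hR : Ext R)
      (h : H = subgroupNormalizer R ⊓ S5 F)
  | c8 (hq : Small q) (h : Nat.card H ∣ 6600 ∨ Nat.card H ∣ 259200 ∧ q % 6 = 5)
      (h5 : q = 5 → ¬ 25 ∣ Nat.card H)

theorem five_dvd {p : ℕ} (h : q = p ∧ p % 5 = 4 ∨ q = p ^ 2 ∧ (p % 5 = 2 ∨ p % 5 = 3)) :
    5 ∣ q + 1 := by
  rcases h with ⟨rfl, h⟩ | ⟨rfl, h | h⟩
  · omega
  all_goals rw [Nat.dvd_iff_mod_eq_zero, Nat.add_mod, Nat.pow_mod, h]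

theorem norm_eq' (hF : Fintype.card F = q ^ 2) (h5 : 5 ∣ q + 1) (h : IsSymplecticTypeGroup 5 R)
    (hR : Ext R) (hU : R ≤ similarityGroup (hermForm 5 F q)) :
    subgroupNormalizer R ⊓ G0 F q = subgroupNormalizer R ⊓ S5 F :=
  norm_eq hF h5 hR.spans (le_GU_of_exponent hF (by decide) h (by decide) hU
    ((Nat.Prime.coprime_iff_not_dvd Nat.prime_five).2 (by have := two_le_q hF; omega)))

theorem cls (h97 : T5797.{u}) (hF : Fintype.card F = q ^ 2) (hH : IsMaximalIn (G0 F q) H) :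
    Cls q H := by
  have k : ∀ W : Submodule F (V5 F), W ≠ ⊥ → W ≠ ⊤ → ¬ Irr (subspaceStabilizer W ⊓ G0 F q) :=
    fun W a b h => (h W fun _ hg v hv => (mem_subspaceStabilizer.1 hg.1 v).1 hv).elim a b
  rcases Cfsg.Agent.S5796.result q hF H hH with ⟨W, h1, h2, rfl⟩ | ⟨W, h1, -, h2, rfl⟩ |
    ⟨D, hD, rfl⟩ | ⟨-, K, hK, -, h⟩ | ⟨F₁, r, P, hr, -, h1, -, h⟩ | ⟨-, F₁, P, h1, -, h⟩ |
    ⟨p, R, hp, -, h1, b1, b2, b3, b4, b5, h⟩ | h
  · refine .c1 (k W h1 ?_)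
    rintro rfl
    simpa using (isSes_hermForm hF 5).nondeg (Pi.single 0 1) fun x => h2 x trivial _ trivial
  · exact .c1 (k W h1 (by rintro rfl; simp at h2))
  · obtain ⟨B, a1, a2⟩ := on_frame (isSes_hermForm hF 5) (frob_ne_id hF) hD
    exact .c3 B (by rw [cm_inf, a2, cm_G0 hF a1])
  · exact .c4 K hK h
  · exact .c5 F₁ r P hr h1 h
  · exact .c5 F₁ 2 P Nat.prime_two h1 h
  · exact .c7 (five_dvd h1) (small_of hp (h1.imp And.left And.left)) R (ext_of b1 b2 b4 b5)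
      (h.trans (norm_eq' hF (five_dvd h1) b1 (ext_of b1 b2 b4 b5) b3))
  obtain ⟨P, hP, hp, h⟩ := h97 q hF H hH h
  have hS : H ≤ S5 F := hH.1.le.trans inf_le_right
  rcases h with ⟨⟨e⟩, h⟩ | ⟨⟨K, _, _, hK, ⟨e⟩⟩, h⟩
  · exact .c8 (small_of hp (.inl rfl)) (.inl ((card8 hS hP e).trans
      (card_aut11 ▸ mul_dvd_mul_right (Nat.gcd_dvd_left 5 _) _))) (by omega)
  · have := card8 hS hP e
    rw [card_aut42 hK] at this
    refine .c8 (small_of hp (.inl rfl))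
      (.inr ⟨this.trans (mul_dvd_mul_right (Nat.gcd_dvd_left 5 _) _), h⟩) ?_
    rintro rfl c
    rw [hF] at this
    exact absurd (c.trans this) (by decide)

theorem le_of_card (h : M ≤ H) (hc : Nat.card H = Nat.card M) : H ≤ M :=
  (Subgroup.eq_of_le_of_card_ge h hc.le).ge

theorem Full.not_c4 (h : Full F₀ (cm B M)) (hK : IsFieldSubalgebra 5 K) :
    ¬ M ≤ subalgebraNormalizer K := fun e =>
  h.inv.elim fun _ a => a.2.2 (scalar_of_invol hK (e a.1) a.2.1)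

theorem Full.not_c5 (h : Full ⊤ (cm B M)) (hS : M ≤ S5 F) {r : ℕ} (hr : r.Prime)
    (hc : Fintype.card F = Nat.card F₁ ^ r) : ¬ M ≤ subfieldSubgroup F₁ P := fun e => by
  rw [top_unique (h.sub e hS).1, Nat.card_congr Subfield.topEquiv.toEquiv,
    Nat.card_eq_fintype_card] at hc
  exact (Nat.pow_lt_pow_right Fintype.one_lt_card hr.one_lt).ne ((pow_one _).trans hc)

theorem full0 (hF : Fintype.card F = q ^ 2) : Full ⊤ (cm 1 (G0 F q)) :=
  full3 hF fun g hg => by simpa [mem_cm] using hg.2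

theorem not_dvd7 (hF : Fintype.card F = q ^ 2) (h5 : 5 ∣ q + 1) (hR : Ext R)
    (h : Nat.card ↥(Mono F ⊓ G0 F q) ∣ Nat.card ↥(subgroupNormalizer R ⊓ S5 F)) : False :=
  absurd ((mul_dvd_mul_right (pow_dvd_pow_of_dvd h5 4) 15).trans ((card3 hF).trans
    (h.trans (card7 hR.spans hR.card)))) (by decide)

theorem max3 (h97 : T5797.{u}) (hF : Fintype.card F = q ^ 2) {D : Fin 5 → Submodule F (V5 F)}
    (hD : IsNondegenerateMDecomposition (hermForm 5 F q) 1 D) :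
    IsMaximalIn (G0 F q) (decompositionStabilizer D ⊓ G0 F q) := by
  obtain ⟨B, a1, a2⟩ := on_frame (isSes_hermForm hF 5) (frob_ne_id hF) hD
  have a3 : cm B (decompositionStabilizer D ⊓ G0 F q) = Mono F ⊓ G0 F q := by
    rw [cm_inf, a2, cm_G0 hF a1]
  have a4 := full3 hF a3.ge
  have a5 := (congrArg (fun X : Subgroup _ => Nat.card X) a3).symm.trans (card_cm _ _)
  refine isMax_of inf_le_right (fun e => ?_) fun H hH hM => ?_
  · obtain ⟨p, k, hp, _, -⟩ := exists_char_pow hF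
    have := Fact.mk hp
    obtain ⟨ω, hω⟩ := exists_ne hF
    obtain ⟨x, hx⟩ := exists_norm_eq' (frob_ne_id hF) (frob_frob hF) (μ := -1) (by simp)
    obtain ⟨n, b1, b2⟩ := pu_herm (p := p) (F₀ := ⊤) (M := cm 1 (G0 F q)) (frob_frob hF) (by simp)
      trivial hω trivial ((mul_comm _ _).trans hx) fun g _ a b =>
        ⟨(fr_one hF).iso a, by simpa using b⟩
    exact (b2.of_cm.le (e.ge.trans inf_le_left) a2.le).not_gt b1
  have hd := a5 ▸ Subgroup.card_dvd_of_le hM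
  cases cls h97 hF hH with
  | c1 h => exact (h fun W hW => a4.irr W fun g hg => hW g (hM hg)).elim
  | c3 B' h => exact le_of_card hM (by rw [← a5, ← h, card_cm])
  | c4 K hK h => exact (a4.not_c4 hK (hM.trans (h ▸ inf_le_left))).elim
  | c5 F₁ r P hr hc h =>
    exact (a4.not_c5 (fun _ hg => hg.2.2) hr hc (hM.trans (h ▸ inf_le_left))).elim
  | c7 h5 _ R hR h => exact (not_dvd7 hF h5 hR (h ▸ hd)).elim
  | c8 _ h =>
    have hd := (card3 hF).trans hd
    rcases h with h | ⟨h, h6⟩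
    · have := two_le_q hF
      have c : q + 1 < 5 := lt_of_pow_lt_pow_left₀ 4 (by decide)
        (by have := Nat.le_of_dvd (by decide) (hd.trans h); omega)
      replace h := hd.trans h
      obtain rfl | rfl : q = 2 ∨ q = 3 := by omega
      all_goals exact absurd h (by decide)
    · exact absurd ((mul_dvd_mul_right (pow_dvd_pow_of_dvd (show 6 ∣ q + 1 by omega) 4) 15).trans
        (hd.trans h)) (by decide)

theorem max4 (h97 : T5797.{u}) (hF : Fintype.card F = q ^ 2) (hq : 3 ≤ q)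
    (hK : IsFieldSubalgebra 5 K) (hc : IsAdjointClosedFor (hermForm 5 F q) K) :
    IsMaximalIn (G0 F q) (subalgebraNormalizer K ⊓ G0 F q) := by
  obtain ⟨k, hk⟩ := exists_sing hF hq hK hc
  refine isMax_of inf_le_right (fun e => (full0 hF).not_c4 hK (e.ge.trans inf_le_left))
    fun H hH hM => ?_
  have a := hM ⟨hk.norm, hk.su⟩
  have b := hk.big (Subgroup.orderOf_dvd_natCard H a)
  cases cls h97 hF hH with
  | c1 h => exact (h (hk.irr a)).elim
  | c3 B h => exact (hk.not_mono a (h.le.trans inf_le_left)).elim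
  | c4 L hL h => rw [h, hk.eq_field hL (h.le a).1]
  | c5 F₁ r P hr hc h => exact (hk.not_sub hF hr hc (h.le a).1).elim
  | c7 _ _ R hR h => exact (b ((h ▸ card7 hR.spans hR.card).trans (by decide))).elim
  | c8 _ h => exact (b (h.elim (·.trans (by decide)) (·.1.trans (by decide)))).elim

theorem mem_sub (hF : Fintype.card F = q ^ 2) {d : V5 F} (h1 : Ent F₀ (P⁻¹ * B).val)
    (h2 : Fr (frob hF) (hermForm 5 F q) d B) {g : G5 F} (a : Ent F₀ g.val)
    (b : g.valᵀ * diagonal d * g.val.map (frob hF) = diagonal d) (c : g ∈ S5 F) :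
    g ∈ cm B (subfieldSubgroup F₀ P ⊓ G0 F q) :=
  ⟨sub_le_of_ent h1 (H19.mem_subfieldSubgroup_iff.2 ⟨1, one_ne_zero, by
    rw [one_smul]; exact (H19.cj_inv_cj B g.val).symm ▸ a⟩), h2.iso b, (cm_S5 B).ge c⟩

theorem max56 (h97 : T5797.{u}) (hF : Fintype.card F = q ^ 2) {r p n : ℕ} (hr : r.Prime)
    (hc : Fintype.card F = Nat.card F₀ ^ r) (h1 : Ent F₀ (P⁻¹ * B).val)
    (h2 : Full F₀ (cm B (subfieldSubgroup F₀ P ⊓ G0 F q))) [Fact p.Prime] [CharP F p]
    (h3 : PU p n (cm B (subfieldSubgroup F₀ P ⊓ G0 F q))) (h4 : 8 < n)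
    (h5 : Small q → Odd q ∧ n = q ^ 2) :
    IsMaximalIn (G0 F q) (subfieldSubgroup F₀ P ⊓ G0 F q) := by
  refine isMax_of inf_le_right (fun e => (full0 hF).not_c5 inf_le_right hr hc
    (e.ge.trans inf_le_left)) fun H hH hM => ?_
  have hd := h3.of_cm.dvd hM
  have hq := two_le_q hF
  have k : ∀ j m, Odd q → 0 < m → m < 242 ^ 2 → q ^ 2 ∣ 2 ^ j * m → q < 242 := fun j m o a b c =>
    lt_of_pow_lt_pow_left₀ 2 (by decide) ((Nat.le_of_dvd a
      ((o.coprime_two_right.pow 2 j).dvd_of_dvd_mul_left c)).trans_lt b)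
  cases cls h97 hF hH with
  | c1 h => exact (h fun W hW => h2.irr W fun g hg => hW g (hM hg)).elim
  | c3 B' h => exact ((h3.of_cm.le hM (h.le.trans inf_le_left)).not_gt h4).elim
  | c4 K hK h => exact (h2.not_c4 hK (hM.trans (h ▸ inf_le_left))).elim
  | c5 F₁ s P' hs hc' h =>
    have a := hM.trans (h.le.trans inf_le_left)
    obtain rfl := subfield_eq (h2.sub a fun _ hg => hg.2.2).1 hr hs (hc.symm.trans hc')
    exact h ▸ inf_le_inf_right _ ((h2.sub_le a fun _ hg => hg.2.2).trans (sub_le_of_ent h1))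
  | c7 a hs R hR h =>
    obtain ⟨b, rfl⟩ := h5 hs
    have c := hd.trans (h ▸ card7 hR.spans hR.card)
    exact ((by decide +kernel : ∀ q < 242, q % 2 = 1 → 5 ∣ q + 1 → ¬ q ^ 2 ∣ 7440000) q
      (k 7 58125 b (by decide) (by decide) c) (Nat.odd_iff.1 b) a c).elim
  | c8 hs h a =>
    obtain ⟨b, rfl⟩ := h5 hs
    obtain rfl := (by decide +kernel : ∀ q < 242, q % 2 = 1 → 2 ≤ q →
      (q ^ 2 ∣ 6600 ∨ q ^ 2 ∣ 259200 ∧ q % 6 = 5) → q = 5) q (h.elim
        (fun c => k 3 825 b (by decide) (by decide) (hd.trans c)) fun c =>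
          k 7 2025 b (by decide) (by decide) (hd.trans c.1)) (Nat.odd_iff.1 b) hq
      (h.imp hd.trans (.imp_left hd.trans))
    exact (a rfl hd).elim

theorem max5 (h97 : T5797.{u}) (hF : Fintype.card F = q ^ 2) {r : ℕ} (hr : r.Prime) (ho : Odd r)
    (hc : Fintype.card F = Nat.card F₀ ^ r) (hP : IsFormRationalStructure (hermForm 5 F q) F₀ 1 P) :
    IsMaximalIn (G0 F q) (subfieldSubgroup F₀ P ⊓ G0 F q) := by
  obtain ⟨p, k, hp, _, -⟩ := exists_char_pow hF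
  have := Fact.mk hp
  have h0 : ∀ c ∈ F₀, frob hF c ∈ F₀ := fun c hc => pow_mem hc q
  obtain ⟨ω, w1, w2⟩ := H62.exists_frob_ne hF F₀ ho hc
  rw [H62.mem_ratF_iff] at w1
  obtain ⟨B, d, a1, a2, -, a3⟩ := rat_frame (isSes_hermForm hF 5) h0 hP (.inl ⟨ω, w1, w2⟩)
  obtain ⟨rfl, e, e1, e2⟩ := a3 ⟨ω, w1, w2⟩
  obtain ⟨n, b1, b2⟩ := pu_herm (p := p) (frob_frob hF) h0 w1 w2 e1 e2 fun g => mem_sub hF a1 a2
  refine max56 h97 hF hr hc a1 (full_mon (frob_frob hF) h0 w1 w2 fun v τ a b c => mem_sub hF a1 a2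
    (fun i j => ?_) (mono_iso τ fun i => (a i).2) (mono_det b c)) b2 b1
    fun hs => (hs _ r hr ho (hF.symm.trans hc)).elim
  rw [dg_pm_apply]
  split_ifs <;> simp [a]

theorem max6 (h97 : T5797.{u}) (hF : Fintype.card F = q ^ 2) (ho : Odd q)
    (hc : Fintype.card F = Nat.card F₀ ^ 2) (hP : IsFormRationalStructure (hermForm 5 F q) F₀ 1 P) :
    IsMaximalIn (G0 F q) (subfieldSubgroup F₀ P ⊓ G0 F q) := by
  obtain ⟨p, k, hp, _, -⟩ := exists_char_pow hF
  have := Fact.mk hp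
  have h2 : (2 : F) ≠ 0 := H62.two_ne_zero_of_odd (hF ▸ ho.pow)
  obtain ⟨B, d, a1, a2, a3, -⟩ := rat_frame (isSes_hermForm hF 5) (fun c hc => pow_mem hc q) hP
    (.inr h2)
  have k : ∀ g : G5 F, Ent F₀ g.val → g.valᵀ * diagonal d * g.val = diagonal d → g ∈ S5 F →
      g ∈ cm B (subfieldSubgroup F₀ P ⊓ G0 F q) := fun g a b => mem_sub hF a1 a2 a (by
    rwa [show g.val.map (frob hF) = g.val from Matrix.ext fun i j =>
      H62.frob_eq_of_card hF F₀ hc _ ((H62.mem_ratF_iff F₀).2 (a i j))])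
  refine max56 h97 hF Nat.prime_two hc a1 (full_orth h2 a3 k) (pu_orth (p := p) h2 a3 k) ?_
    fun _ => ⟨ho, hc.symm.trans hF⟩
  have := two_le_q hF
  have : 3 ≤ q := by obtain ⟨m, rfl⟩ := ho; omega
  rw [← hc, hF]; nlinarith

theorem Ext.data (hR : Ext R) {ω : Fˣ} (hω : orderOf ω = 5) : ∃ (B x d t : G5 F) (N : Subgroup (G5 F)),
    cm B (subgroupNormalizer R ⊓ S5 F) = N ∧ cm B R = Subgroup.closure {x, d} ∧ x ∈ N ∧ d ∈ N ∧
    t ∈ N ∧ t * t = 1 ∧ t ∉ Z5 F ∧ x * d * x⁻¹ = sc _ ω⁻¹ * d ∧ (∀ B, ¬ cm B N ≤ Mono F) ∧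
    ∀ R', Ext R' → Nat.card ↥(subgroupNormalizer R' ⊓ S5 F) = Nat.card N :=
  (hR.std hω).elim fun B h => ⟨B, xx F 5, dp 5 ω 1, tt F 5, N6 ω, h.2, h.1, xx_mem, dp_mem hω,
    tt_mem hω, tt_mul_tt (r := 5), tt_not_mem, xx_conj_dp hω, not_mono6 hω,
    fun _ h => (h.std hω).elim fun B h =>
      (card_cm B _).symm.trans (congrArg (fun X : Subgroup (G5 F) => Nat.card X) h.2)⟩

theorem max7 (h97 : T5797.{u}) (hF : Fintype.card F = q ^ 2) (h5 : 5 ∣ q + 1) (hq : Small q)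
    (hR : Ext R) (e : subgroupNormalizer R ⊓ G0 F q = subgroupNormalizer R ⊓ S5 F) :
    IsMaximalIn (G0 F q) (subgroupNormalizer R ⊓ G0 F q) := by
  have := Fact.mk Nat.prime_five
  obtain ⟨ω, hω⟩ : ∃ ω : Fˣ, orderOf ω = 5 := by
    classical
    refine exists_prime_orderOf_dvd_card 5 ?_
    rw [Fintype.card_units, hF, show q ^ 2 - 1 = (q + 1) * (q - 1) from Nat.sq_sub_sq q 1]
    exact h5.mul_right _
  obtain ⟨B, x, d, t, N, b1, b2, hx, hd, ht, t1, t2, b3, b4, b5⟩ := hR.data hω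
  refine isMax_of inf_le_right (fun c => not_dvd7 hF h5 hR
    (Subgroup.card_dvd_of_le (inf_le_right.trans (c.symm.trans e).le))) fun H hH hM => ?_
  rw [e] at hM ⊢
  have m : ∀ g ∈ N, B * g * B⁻¹ ∈ H := fun g hg => hM (b1.ge hg)
  have hRH : R ≤ H := fun g hg => by
    have : cm B R ≤ cm B H := b2.le.trans ((Subgroup.closure_le _).2 (by
      rintro _ (rfl | rfl)
      exacts [m _ hx, m _ hd]))
    simpa [mem_cm, mul_assoc] using this (x := B⁻¹ * g * B) (by simpa [mem_cm, mul_assoc])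
  cases cls h97 hF hH with
  | c1 h => exact (h fun W hW => hR.spans.irr W fun g hg => hW g (hRH hg)).elim
  | c3 B' h =>
    exact (b4 (B⁻¹ * B') fun g hg => (h.le (by simpa [mem_cm, mul_assoc] using m _ hg)).1).elim
  | c4 K hK h =>
    exact (t2 (conj_mem_Z5.1 (scalar_of_invol hK (h.le (m _ ht)).1 (by simp [t1])))).elim
  | c5 F₁ r P hr hc h =>
    obtain rfl := hr.eq_two_or_odd'.resolve_right fun ho => hq _ r hr ho (hF.symm.trans hc)
    have a := H19.pow_card_subfield (mem_of_comm (ζ := ω⁻¹) (h.le (m _ hx)).1 (h.le (m _ hd)).1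
      (by rw [conj_mul, conj_inv, conj_mul, b3, ← mul_assoc B, ← sc_comm]; simp only [mul_assoc]))
    rw [Nat.pow_left_injective two_ne_zero (hc.symm.trans hF), ← Units.val_pow_eq_pow_val,
      Units.val_inj, inv_pow, _root_.inv_inj] at a
    have : ω ^ 2 = 1 := by
      rw [← orderOf_dvd_iff_pow_eq_one.1 (hω ▸ h5), pow_succ ω q, a, sq]
    exact absurd (hω ▸ orderOf_dvd_of_pow_eq_one this) (by decide)
  | c7 _ _ R' hR' h => exact le_of_card hM (by rw [h, b5 _ hR', b5 _ hR])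
  | c8 _ h =>
    have := hR.card ▸ Subgroup.card_dvd_of_le hRH
    exact h.elim (fun c => absurd (this.trans c) (by decide)) fun c =>
      absurd (this.trans c.1) (by decide)

/-- the statement S5795 from S5797 -/
theorem su5_max (h97 : T5797.{u}) (hF : Fintype.card F = q ^ 2) :
    (∀ W : Submodule F (V5 F), W ≠ ⊥ → IsTotallySingularFor (hermForm 5 F q) W →
      IsMaximalIn (G0 F q) (subspaceStabilizer W ⊓ G0 F q)) ∧
    (∀ W : Submodule F (V5 F), W ≠ ⊥ → IsNondegenerateOn (hermForm 5 F q) W →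
      2 * finrank F W < 5 → IsMaximalIn (G0 F q) (subspaceStabilizer W ⊓ G0 F q)) ∧
    (∀ D : Fin 5 → Submodule F (V5 F), IsNondegenerateMDecomposition (hermForm 5 F q) 1 D →
      IsMaximalIn (G0 F q) (decompositionStabilizer D ⊓ G0 F q)) ∧
    (3 ≤ q → ∀ K : Subalgebra F (M5 F), IsFieldSubalgebra 5 K →
      IsAdjointClosedFor (hermForm 5 F q) K →
      IsMaximalIn (G0 F q) (subalgebraNormalizer K ⊓ G0 F q)) ∧
    (∀ (F₀ : Subfield F) (r : ℕ) (P : G5 F), r.Prime → Odd r → Fintype.card F = Nat.card F₀ ^ r →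
      IsFormRationalStructure (hermForm 5 F q) F₀ 1 P →
      IsMaximalIn (G0 F q) (subfieldSubgroup F₀ P ⊓ G0 F q)) ∧
    (Odd q → ∀ (F₀ : Subfield F) (P : G5 F), Fintype.card F = Nat.card F₀ ^ 2 →
      IsFormRationalStructure (hermForm 5 F q) F₀ 1 P →
      IsMaximalIn (G0 F q) (subfieldSubgroup F₀ P ⊓ G0 F q)) ∧
    (∀ (p : ℕ) (R : Subgroup (G5 F)), p.Prime → CharP F p →
      (q = p ∧ p % 5 = 4 ∨ q = p ^ 2 ∧ (p % 5 = 2 ∨ p % 5 = 3)) → IsSymplecticTypeGroup 5 R →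
      ActsAbsolutelyIrreducibly (matrixSet R) → R ≤ similarityGroup (hermForm 5 F q) →
      Nat.card R = 125 → Nat.card (Subgroup.center R) = 5 →
      IsMaximalIn (G0 F q) (subgroupNormalizer R ⊓ G0 F q)) :=
  ⟨fun W h0 hW => H62.isMaximalIn_su_singular hF (by omega) W h0 hW,
    fun W h0 hW h => H62.isMaximalIn_su_nondeg hF (by omega) W h0 hW h,
    fun _ => max3 h97 hF, fun hq _ => max4 h97 hF hq, fun _ _ _ => max5 h97 hF,
    fun ho _ _ => max6 h97 hF ho, fun _ _ hp _ h b1 b2 b3 b4 b5 =>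
      max7 h97 hF (five_dvd h) (small_of hp (h.imp And.left And.left)) (ext_of b1 b2 b4 b5)
        (norm_eq' hF (five_dvd h) b1 (ext_of b1 b2 b4 b5) b3)⟩

end H53.U5
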